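import Mathlib
import Cfsg.Prelude.Def_Blocks
import Cfsg.Prelude.Def_BlockLocal
import Cfsg.Agent.Lib.Helper16.Cover
import Cfsg.Agent.Lib.Helper77.SubBlock
import Cfsg.Agent.Lib.Helper77.IrrMap

/-!
# Transport lemmas for Knörr's theorem

Central characters along `K.subgroupOf L ≃* K`, central characters of a character lying over a
character of a normal subgroup, and the subgroup of the elements stabilizing a block of a
subgroup.
-/

set_option autoImplicit false
set_option linter.unusedSectionVars false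

namespace Cfsg.Agent.Lib.Helper3.KnorrTr

open Cfsg Cfsg.Agent.Lib.Helper16 Cfsg.Agent.Lib.Helper77

/-- transport of the inner product along an isomorphism -/
theorem classInner_comp_equiv {A B : Type*} [Group A] [Group B] [Fintype A] [Fintype B]
    (e : A ≃* B) (α β : B → ℂ) :
    Cfsg.classInner (fun a => α (e a)) (fun a => β (e a)) = Cfsg.classInner α β := by
  unfold Cfsg.classInner
  rw [Nat.card_congr e.toEquiv]
  congr 1
  exact Fintype.sum_equiv e.toEquiv _ _ (fun _ => rfl)

section Omega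

variable {G : Type*} [Group G] [Fintype G]

/-- the central character of the copy of `θ` on `K.subgroupOf L` -/
theorem omega_pull {K L : Subgroup G} [Fintype K] [Fintype (K.subgroupOf L)] (h : K ≤ L)
    (θ : Cfsg.IrrCharacter K) (α : G → ℂ) :
    omega (mapIrr (Subgroup.subgroupOfEquivOfLe h).symm θ : (K.subgroupOf L) → ℂ)
      (resFun (K.subgroupOf L) (resFun L α)) = omega (θ : K → ℂ) (resFun K α) := by
  unfold omega
  refine Fintype.sum_equiv (Subgroup.subgroupOfEquivOfLe h).toEquiv _ _ ?_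
  intro k
  rw [mapIrr_apply, mapIrr_apply, map_one]
  rfl

/-- the central character of `χ` at a class function supported on the normal subgroup `N` is
the central character of any constituent of the restriction of `χ` to `N` -/
theorem omega_eq_of_over (N : Subgroup G) [hN : N.Normal] [Fintype N] {χ : Cfsg.IrrCharacter G}
    {θ : Cfsg.IrrCharacter N}
    (h : Cfsg.classInner (fun n : N => (χ : G → ℂ) n) (θ : N → ℂ) ≠ 0) {α : G → ℂ}
    (hα : Cfsg.IsClassFunction G α) (hα0 : ∀ g : G, g ∉ N → α g = 0) :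
    omega (χ : G → ℂ) α = omega (θ : N → ℂ) (resFun N α) := by
  classical
  unfold omega
  rw [← Finset.sum_div, ← Finset.sum_div]
  have e : ∑ x : G, α x * (χ : G → ℂ) x = ∑ m : N, α m * (χ : G → ℂ) m := by
    rw [← Cfsg.Agent.Lib.Helper3.sum_extendByZero_mul N (fun m : N => α m) (χ : G → ℂ)]
    apply Finset.sum_congr rfl
    intro x _
    congr 1
    by_cases hx : x ∈ N
    · rw [Cfsg.Agent.Lib.Helper3.extendByZero_of_mem N _ hx]
    · rw [Cfsg.Agent.Lib.Helper3.extendByZero_of_not_mem N _ hx]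
      exact hα0 x hx
  rw [e]
  exact sum_res_mul_eq N h hα

end Omega

section Stab

variable {G : Type*} [Group G] {M : Ideal Cfsg.AlgInt}

/-- stabilizing a set of characters, in the form of the frozen statements -/
theorem stabilizesBlock_iff_forall (K : Subgroup G) (A : Set (Cfsg.IrrCharacter K)) (g : G)
    (hg : g ∈ Subgroup.normalizer (K : Set G)) :
    Cfsg.StabilizesBlock K A g ↔ ∀ θ ∈ A, ∀ θ' : Cfsg.IrrCharacter K,
      Cfsg.IsConjCharOf K g (θ : K → ℂ) (θ' : K → ℂ) → θ' ∈ A := by
  constructor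
  · rintro ⟨_, h⟩ θ hθ θ' hc
    obtain ⟨χ', hχ', hc'⟩ := h θ hθ
    rw [isConjCharOf_iff K g hg] at hc hc'
    rw [hc, ← hc']
    exact hχ'
  · intro h
    exact ⟨hg, fun χ hχ => ⟨mapIrr (conjAut K g hg) χ,
      h χ hχ _ ((isConjCharOf_iff K g hg _ _).mpr rfl), (isConjCharOf_iff K g hg _ _).mpr rfl⟩⟩

/-- stabilizing the copy of a set of characters on `K.subgroupOf L` -/
theorem stabilizesBlock_of_pullSet [Fintype G] {K L : Subgroup G} (h : K ≤ L)
    {f : Set (Cfsg.IrrCharacter K)} {x : L}
    (hx : Cfsg.StabilizesBlock (K.subgroupOf L) (pullSet h f) x) :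
    Cfsg.StabilizesBlock K f (x : G) := by
  obtain ⟨hxn, hxs⟩ := hx
  refine ⟨?_, ?_⟩
  · rw [Subgroup.mem_normalizer_iff]
    intro k
    constructor
    · intro hk
      have := (Subgroup.mem_normalizer_iff.mp hxn ⟨k, h hk⟩).mp
        (Subgroup.mem_subgroupOf.mpr hk)
      exact Subgroup.mem_subgroupOf.mp this
    · intro hk
      have hkL : k ∈ L := by
        have h1 : (x : G)⁻¹ * ((x : G) * k * (x : G)⁻¹) * (x : G) ∈ L :=
          L.mul_mem (L.mul_mem (L.inv_mem x.2) (h hk)) x.2
        have e : (x : G)⁻¹ * ((x : G) * k * (x : G)⁻¹) * (x : G) = k := by group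
        rwa [e] at h1
      have := (Subgroup.mem_normalizer_iff.mp hxn ⟨k, hkL⟩).mpr
        (Subgroup.mem_subgroupOf.mpr hk)
      exact Subgroup.mem_subgroupOf.mp this
  · intro χ hχ
    have hmem : mapIrr (Subgroup.subgroupOfEquivOfLe h).symm χ ∈ pullSet h f := ⟨χ, hχ, rfl⟩
    obtain ⟨χ'', ⟨ξ', hξ', rfl⟩, hconj⟩ := hxs _ hmem
    refine ⟨ξ', hξ', ?_⟩
    intro k k' hk
    have h1 := hconj ((Subgroup.subgroupOfEquivOfLe h).symm k)
      ((Subgroup.subgroupOfEquivOfLe h).symm k') (by
        apply Subtype.ext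
        show (k' : G) = (x : G) * (k : G) * (x : G)⁻¹
        exact hk)
    rw [mapIrr_apply, mapIrr_apply] at h1
    simpa using h1

/-- two blocks one of which contains the other are equal -/
theorem block_eq_of_subset (hM : M.IsPrime) {K : Type*} [Group K]
    {A A' : Set (Cfsg.IrrCharacter K)}
    (hA : Cfsg.IsPBlock M A) (hA' : Cfsg.IsPBlock M A') (h : A' ⊆ A) : A' = A := by
  obtain ⟨χ, hχ⟩ := IsPBlock.nonempty hM hA'
  rw [IsPBlock.eq_blockOf hM hA' hχ, IsPBlock.eq_blockOf hM hA (h hχ)]

/-- the subgroup of the elements stabilizing a block of a subgroup -/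
def stabSub (hM : M.IsPrime) (K : Subgroup G) (A : Set (Cfsg.IrrCharacter K))
    (hA : Cfsg.IsPBlock M A) : Subgroup G where
  carrier := {g | Cfsg.StabilizesBlock K A g}
  mul_mem' := by
    intro u v hu hv
    have hu' := hu.1
    have hv' := hv.1
    have huv : u * v ∈ Subgroup.normalizer (K : Set G) := Subgroup.mul_mem _ hu' hv'
    show Cfsg.StabilizesBlock K A (u * v)
    rw [stabilizesBlock_iff K A (u * v) huv, conjSet_mul K u v hu' hv' huv]
    have h1 : conjSet K u hu' (conjSet K v hv' A) ⊆ conjSet K u hu' A :=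
      mapSet_mono (conjAut K u hu') ((stabilizesBlock_iff K A v hv').mp hv)
    exact h1.trans ((stabilizesBlock_iff K A u hu').mp hu)
  one_mem' := by
    show Cfsg.StabilizesBlock K A 1
    rw [stabilizesBlock_iff K A 1 (Subgroup.one_mem _), conjSet_one]
  inv_mem' := by
    intro u hu
    have hu' := hu.1
    have hui : u⁻¹ ∈ Subgroup.normalizer (K : Set G) := Subgroup.inv_mem _ hu'
    show Cfsg.StabilizesBlock K A u⁻¹
    rw [stabilizesBlock_iff K A u⁻¹ hui]
    have heq : conjSet K u hu' A = A :=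
      block_eq_of_subset hM hA (isPBlock_conjSet hM K u hu' hA)
        ((stabilizesBlock_iff K A u hu').mp hu)
    have h2 := conjSet_inv_conjSet K u hu' hui A
    rw [heq] at h2
    rw [h2]

theorem mem_stabSub (hM : M.IsPrime) (K : Subgroup G) (A : Set (Cfsg.IrrCharacter K))
    (hA : Cfsg.IsPBlock M A) (g : G) :
    g ∈ stabSub hM K A hA ↔ Cfsg.StabilizesBlock K A g := Iff.rfl

/-- the elements of `K` stabilize every set of irreducible characters of `K` -/
theorem stabilizesBlock_of_mem [Finite G] (K : Subgroup G) (A : Set (Cfsg.IrrCharacter K)) {x : G}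
    (hx : x ∈ K) : Cfsg.StabilizesBlock K A x := by
  refine ⟨Subgroup.le_normalizer hx, fun χ hχ => ⟨χ, hχ, ?_⟩⟩
  intro k k' hk
  have e : k' = (⟨x, hx⟩ : K) * k * (⟨x, hx⟩ : K)⁻¹ := Subtype.ext (by rw [hk]; rfl)
  have : Fintype K := Fintype.ofFinite _
  rw [e]
  exact irrCharacter_conj_eq χ _ _

/-- stabilizing a block of a normal subgroup, through `conjIrr` -/
theorem conjIrr_mem_of_stabilizes (Y : Subgroup G) [hY : Y.Normal] [Fintype Y]
    {A : Set (Cfsg.IrrCharacter Y)} {g : G} (h : Cfsg.StabilizesBlock Y A g)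
    {θ : Cfsg.IrrCharacter Y} (hθ : θ ∈ A) : conjIrr Y θ g ∈ A := by
  obtain ⟨χ', hχ', hc⟩ := h.2 θ hθ
  have e : conjIrr Y θ g = χ' := by
    apply Subtype.ext
    funext n
    have hmem : g⁻¹ * (n : G) * g ∈ Y := by
      have := hY.conj_mem n n.2 g⁻¹
      simpa using this
    rw [conjIrr_apply Y θ g n hmem]
    exact (hc ⟨g⁻¹ * (n : G) * g, hmem⟩ n (by simp [mul_assoc])).symm
  rw [e]
  exact hχ'

end Stab

end Cfsg.Agent.Lib.Helper3.KnorrTr
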