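import Mathlib
import Cfsg.Prelude.Def_Blocks
import Cfsg.Prelude.Def_BlockLocal
import Cfsg.Prelude.Def_BlockRank
import Cfsg.Agent.Lib.Helper77.PIndex
import Cfsg.Agent.Lib.Helper81.CoprimeChar
import Cfsg.Agent.Lib.Helper3.CharDecomp
import Cfsg.Agent.Lib.Helper16.Cover
import Cfsg.Agent.Lib.Helper80.Orthogonality

/-!
# Blocks with abelian defect group over a normal subgroup of `p`-power index

The "outer" part of the theorem: given a `p`-regular element `y` such that no member of the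
block `B` vanishes on the coset `P y` of the (abelian) defect group, every member of `B`
restricts irreducibly to `N`, and the counting statements follow.
-/

set_option autoImplicit false

namespace Cfsg.Agent.Lib.Helper3.AbDef

open scoped ComplexConjugate

universe u

section Res

variable {G : Type u} [Group G] [Fintype G] (N : Subgroup G) [hN : N.Normal] [Fintype N]

/-- If `G / N` is abelian, an irreducible character of `G` restricts irreducibly to `N` or
vanishes outside a proper subgroup containing `N`. -/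
theorem res_irr_or_vanish (hab : ∀ x y : G ⧸ N, x * y = y * x) {χ : G → ℂ}
    (hχ : Cfsg.IsIrrCharacter G χ) :
    Cfsg.IsIrrCharacter N (fun n : N => χ n) ∨
      ∃ K : Subgroup G, N ≤ K ∧ K ≠ ⊤ ∧ ∀ g : G, g ∉ K → χ g = 0 := by
  classical
  have : Fintype (G ⧸ N) := Fintype.ofFinite _
  have : Fintype (Cfsg.IrrCharacter (G ⧸ N)) := Fintype.ofFinite _
  have hχc := Helper80.isCharacter_of_isIrrCharacter hχ
  have hsum := Helper81.sum_twist_inner' N hab χ χ
  have hlin : ∀ β : Cfsg.IrrCharacter (G ⧸ N), (β : G ⧸ N → ℂ) 1 = 1 :=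
    fun β => Helper82.irr_one_eq_one_of_comm hab β.2
  have hinf : ∀ β : Cfsg.IrrCharacter (G ⧸ N),
      Cfsg.IsCharacter G (fun g : G => (β : G ⧸ N → ℂ) (g : G ⧸ N)) :=
    fun β => Helper80.isCharacter_comp (QuotientGroup.mk' N)
      (Helper80.isCharacter_of_isIrrCharacter β.2)
  have hterm : ∀ β : Cfsg.IrrCharacter (G ⧸ N),
      Cfsg.classInner ((fun g : G => (β : G ⧸ N → ℂ) (g : G ⧸ N)) * χ) χ =
        if (fun g : G => (β : G ⧸ N → ℂ) (g : G ⧸ N)) * χ = χ then 1 else 0 := by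
    intro β
    exact Helper80.classInner_irr_fun
      (Helper15.isIrrCharacter_lin_mul (hinf β) (hlin β) hχ) hχ
  by_cases hex : ∃ β : Cfsg.IrrCharacter (G ⧸ N), (β : G ⧸ N → ℂ) ≠ (fun _ => 1) ∧
      (fun g : G => (β : G ⧸ N → ℂ) (g : G ⧸ N)) * χ = χ
  · right
    obtain ⟨β, hβne, hβχ⟩ := hex
    let f : G →* ℂˣ :=
      (Helper15.linCharHom (Helper80.isCharacter_of_isIrrCharacter β.2) (hlin β)).comp
        (QuotientGroup.mk' N)
    have hf : ∀ g : G, ((f g : ℂˣ) : ℂ) = (β : G ⧸ N → ℂ) (g : G ⧸ N) := fun g => rfl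
    refine ⟨f.ker, ?_, ?_, ?_⟩
    · intro n hn
      rw [MonoidHom.mem_ker]
      apply Units.ext
      rw [hf, (QuotientGroup.eq_one_iff n).2 hn, hlin β]
      rfl
    · intro htop
      apply hβne
      funext q
      induction q using QuotientGroup.induction_on with | H g => ?_
      have hg : g ∈ f.ker := by rw [htop]; exact Subgroup.mem_top g
      rw [MonoidHom.mem_ker] at hg
      rw [← hf g, hg]
      rfl
    · intro g hg
      by_contra h0
      apply hg
      rw [MonoidHom.mem_ker]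
      apply Units.ext
      have h := congrFun hβχ g
      rw [Pi.mul_apply] at h
      have h2 : ((β : G ⧸ N → ℂ) (g : G ⧸ N) - 1) * χ g = 0 := by
        rw [sub_mul, h, one_mul, sub_self]
      rcases mul_eq_zero.1 h2 with h3 | h3
      · rw [hf]
        exact sub_eq_zero.1 h3
      · exact absurd h3 h0
  · left
    push Not at hex
    apply Helper3.isIrrCharacter_of_classInner_eq_one (Helper80.isCharacter_restrict N hχc)
    rw [← hsum, Finset.sum_congr rfl (fun β _ => hterm β)]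
    let β₀ : Cfsg.IrrCharacter (G ⧸ N) := ⟨fun _ => 1, Helper80.isIrrCharacter_one⟩
    rw [Finset.sum_eq_single β₀]
    · rw [if_pos]
      funext g
      simp [β₀]
    · intro β _ hβ
      rw [if_neg]
      intro h
      apply hβ
      apply Subtype.ext
      by_contra hne
      exact hex β hne h
    · intro h
      exact absurd (Finset.mem_univ _) h

omit [Fintype G] [Fintype N] in
/-- `G = N P` with `P` abelian has abelian quotient `G / N`. -/
theorem quot_comm_of_sup (P : Subgroup G) (hNP : N ⊔ P = ⊤)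
    (hPab : ∀ x ∈ P, ∀ y ∈ P, x * y = y * x) : ∀ a b : G ⧸ N, a * b = b * a := by
  have hrep : ∀ a : G ⧸ N, ∃ x ∈ P, (x : G ⧸ N) = a := by
    intro a
    induction a using QuotientGroup.induction_on with | H g => ?_
    have hg : g ∈ N ⊔ P := by rw [hNP]; exact Subgroup.mem_top g
    rw [← SetLike.mem_coe, Subgroup.normal_mul] at hg
    obtain ⟨n, hn, x, hx, rfl⟩ := Set.mem_mul.1 hg
    refine ⟨x, hx, ?_⟩
    rw [QuotientGroup.mk_mul, (QuotientGroup.eq_one_iff n).2 hn, one_mul]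
  intro a b
  obtain ⟨x, hx, rfl⟩ := hrep a
  obtain ⟨y, hy, rfl⟩ := hrep b
  rw [← QuotientGroup.mk_mul, ← QuotientGroup.mk_mul, hPab x hx y hy]

/-- A nonvanishing coset forces irreducible restriction. -/
theorem res_irr_of_nonvanishing (hab : ∀ x y : G ⧸ N, x * y = y * x) (P : Subgroup G)
    (hNP : N ⊔ P = ⊤) {y : G} (hy : y ∈ N) {χ : G → ℂ} (hχ : Cfsg.IsIrrCharacter G χ)
    (hnv : ∀ x ∈ P, χ (x * y) ≠ 0) : Cfsg.IsIrrCharacter N (fun n : N => χ n) := by
  rcases res_irr_or_vanish N hab hχ with h | ⟨K, hNK, hK, hvan⟩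
  · exact h
  · exfalso
    have hPK : ¬ P ≤ K := by
      intro hPK
      apply hK
      rw [eq_top_iff, ← hNP]
      exact sup_le hNK hPK
    obtain ⟨x, hx, hxK⟩ := SetLike.not_le_iff_exists.1 hPK
    apply hnv x hx
    apply hvan
    intro hxy
    apply hxK
    have := K.mul_mem hxy (K.inv_mem (hNK hy))
    rwa [mul_inv_cancel_right] at this

omit hN in
/-- Counting the extensions of `θ` when every irreducible character over `θ` extends it. -/
theorem card_ext_eq_index {θ : N → ℂ} (hθ : Cfsg.IsIrrCharacter N θ)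
    (H : ∀ χ : Cfsg.IrrCharacter G,
      Cfsg.classInner (fun n : N => (χ : G → ℂ) n) θ ≠ 0 → ∀ n : N, (χ : G → ℂ) n = θ n) :
    Nat.card {χ : Cfsg.IrrCharacter G // ∀ n : N, (χ : G → ℂ) n = θ n} = N.index := by
  classical
  have : Fintype (Cfsg.IrrCharacter G) := Fintype.ofFinite _
  have hN0 : (Nat.card N : ℂ) ≠ 0 := by
    exact_mod_cast (Nat.card_pos (α := N)).ne'
  have hkey : ∑ χ : Cfsg.IrrCharacter G,
      conj ((χ : G → ℂ) 1) * Cfsg.classInner (fun n : N => (χ : G → ℂ) n) θ =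
      (N.index : ℂ) * conj (θ 1) := by
    unfold Cfsg.classInner
    simp only [Finset.mul_sum]
    rw [Finset.sum_comm]
    have hn : ∀ n : N, ∑ χ : Cfsg.IrrCharacter G,
        conj ((χ : G → ℂ) 1) * ((Nat.card N : ℂ)⁻¹ * ((χ : G → ℂ) n * conj (θ n))) =
        (Nat.card N : ℂ)⁻¹ * conj (θ n) *
          (if (n : G) = 1 then (Nat.card G : ℂ) else 0) := by
      intro n
      have h := Helper80.second_orthogonality_aux (n : G) (1 : G)
      have h' : ∑ χ : Cfsg.IrrCharacter G, (χ : G → ℂ) n * conj ((χ : G → ℂ) 1) =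
          if (n : G) = 1 then (Nat.card G : ℂ) else 0 := by
        rw [h]
        by_cases hn1 : (n : G) = 1
        · rw [if_pos hn1, if_pos (by rw [hn1])]
          have hc : Subgroup.centralizer ({(n : G)} : Set G) = ⊤ := by
            rw [hn1, Subgroup.centralizer_eq_top_iff_subset]
            intro x hx
            rw [Set.mem_singleton_iff] at hx
            rw [hx]
            exact one_mem _
          rw [hc, Subgroup.card_top]
        · rw [if_neg hn1, if_neg]
          rw [isConj_one_left]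
          exact hn1
      rw [← h', Finset.mul_sum]
      refine Finset.sum_congr rfl (fun χ _ => ?_)
      ring
    rw [Finset.sum_congr rfl (fun n _ => hn n), Finset.sum_eq_single (1 : N)]
    · rw [if_pos (by simp), ← Subgroup.card_mul_index N]
      push_cast
      have : ((1 : N) : G) = 1 := rfl
      field_simp
    · intro n _ hn1
      rw [if_neg, mul_zero]
      intro h
      exact hn1 (Subtype.ext h)
    · intro h
      exact absurd (Finset.mem_univ _) h
  have hterm : ∀ χ : Cfsg.IrrCharacter G,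
      conj ((χ : G → ℂ) 1) * Cfsg.classInner (fun n : N => (χ : G → ℂ) n) θ =
      if (∀ n : N, (χ : G → ℂ) n = θ n) then conj (θ 1) else 0 := by
    intro χ
    by_cases hc : ∀ n : N, (χ : G → ℂ) n = θ n
    · rw [if_pos hc]
      have h1 : (fun n : N => (χ : G → ℂ) n) = θ := funext hc
      rw [h1, Helper80.classInner_self hθ, mul_one]
      have := hc 1
      rw [show ((1 : N) : G) = 1 from rfl] at this
      rw [this]
    · rw [if_neg hc]
      by_contra h0
      apply hc
      apply H χ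
      intro h
      apply h0
      rw [h, mul_zero]
  rw [Finset.sum_congr rfl (fun χ _ => hterm χ), ← Finset.sum_filter, Finset.sum_const,
    nsmul_eq_mul] at hkey
  have hθ1 : conj (θ 1) ≠ 0 := by
    rw [Ne, map_eq_zero]
    exact Helper80.char_one_ne_zero hθ
  have h2 := mul_right_cancel₀ hθ1 hkey
  rw [Nat.card_eq_fintype_card, Fintype.card_subtype]
  exact_mod_cast h2

end Res

section Rank

variable {G : Type u} [Group G] (N : Subgroup G)

open Classical in
/-- extension by zero as a linear map -/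
noncomputable def ext0L : (N → ℂ) →ₗ[ℂ] (G → ℂ) where
  toFun f := fun g => if h : g ∈ N then f ⟨g, h⟩ else 0
  map_add' f₁ f₂ := by
    funext g
    by_cases h : g ∈ N
    · simp [h]
    · simp [h]
  map_smul' c f := by
    funext g
    by_cases h : g ∈ N
    · simp [h]
    · simp [h]

theorem ext0L_of_mem (f : N → ℂ) {g : G} (h : g ∈ N) : ext0L N f g = f ⟨g, h⟩ := by
  unfold ext0L
  simp [h]

theorem ext0L_of_not_mem (f : N → ℂ) {g : G} (h : g ∉ N) : ext0L N f g = 0 := by
  unfold ext0L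
  simp [h]

theorem ext0L_injective : Function.Injective (ext0L N) := by
  intro f₁ f₂ h
  funext n
  have := congrFun h (n : G)
  rwa [ext0L_of_mem N f₁ n.2, ext0L_of_mem N f₂ n.2] at this

/-- the `p`-regular part of a function whose restriction to a normal subgroup of `p`-power index
is `θ` is the extension by zero of the `p`-regular part of `θ` -/
theorem ext0L_pRegularPart (p : ℕ) [Fact p.Prime] [N.Normal] (hNi : ∃ k : ℕ, N.index = p ^ k)
    {χ : G → ℂ} {θ : N → ℂ} (h : ∀ n : N, χ n = θ n) :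
    ext0L N (Cfsg.pRegularPart p θ) = Cfsg.pRegularPart p χ := by
  funext g
  by_cases hg : g ∈ N
  · rw [ext0L_of_mem N _ hg]
    unfold Cfsg.pRegularPart Cfsg.IsPRegular
    rw [Subgroup.orderOf_mk, ← h ⟨g, hg⟩]
  · rw [ext0L_of_not_mem N _ hg]
    unfold Cfsg.pRegularPart Cfsg.IsPRegular
    rw [if_neg]
    intro hreg
    exact hreg (Cfsg.Agent.Lib.Helper77.dvd_orderOf_of_not_mem N hNi hg)

end Rank

section Main

variable {G : Type u} [Group G] [Fintype G]

/-- **Blocks with abelian defect group over a normal subgroup of `p`-power index**, given a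
`p`-regular element `y` with no member of `B` vanishing on `P y`. -/
theorem main (p : ℕ) [Fact p.Prime] (M : Ideal Cfsg.AlgInt) (hM : Cfsg.IsPModular p M)
    (N : Subgroup G) [N.Normal] [Fintype N] (hNi : ∃ k : ℕ, N.index = p ^ k)
    (b : Set (Cfsg.IrrCharacter N)) (hb : Cfsg.IsPBlock M b)
    (hstab : ∀ g : G, Cfsg.StabilizesBlock N b g) (B : Set (Cfsg.IrrCharacter G))
    (hB : Cfsg.IsPBlock M B)
    (hcov : ∃ χ ∈ B, ∃ θ ∈ b,
      Cfsg.classInner (fun n : N => (χ : G → ℂ) n) (θ : N → ℂ) ≠ 0)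
    (P : Subgroup G) (hPD : Cfsg.IsDefectGroup p M B P)
    (hPab : ∀ x ∈ P, ∀ y ∈ P, x * y = y * x)
    (hmajor : ∃ y : G, (¬ p ∣ orderOf y) ∧ ∀ x ∈ P, ∀ χ ∈ B, (χ : G → ℂ) (x * y) ≠ 0) :
    N ⊔ P = ⊤ ∧ Cfsg.IsDefectGroup p M b ((P ⊓ N).subgroupOf N) ∧
      (∀ χ ∈ B, ∃ θ ∈ b, ∀ n : N, (χ : G → ℂ) n = (θ : N → ℂ) n) ∧
      (∀ θ ∈ b, Nat.card {χ : Cfsg.IrrCharacter G //
        χ ∈ B ∧ ∀ n : N, (χ : G → ℂ) n = (θ : N → ℂ) n} = N.index) ∧
      Nat.card B = N.index * Nat.card b ∧ Cfsg.blockRank p B = Cfsg.blockRank p b := by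
  classical
  have hMp : M.IsPrime := hM.2.1.isPrime
  obtain ⟨B', hB', hBc'⟩ :=
    Cfsg.Agent.Lib.Helper77.exists_block_eq_subgroupBlockCoeff hM N hNi b hb hstab
  obtain ⟨χ₀, hχ₀, θ₀, hθ₀, hcon₀⟩ := hcov
  have hχ₀' : χ₀ ∈ B' :=
    Cfsg.Agent.Lib.Helper77.mem_of_over_of_blockCoeff_eq N b B' hBc' hθ₀ hcon₀
  have hBB' : B = B' := by
    rw [Cfsg.Agent.Lib.Helper16.IsPBlock.eq_blockOf hMp hB hχ₀,
      Cfsg.Agent.Lib.Helper16.IsPBlock.eq_blockOf hMp hB' hχ₀']
  subst hBB'
  obtain ⟨h1, h2⟩ := Cfsg.Agent.Lib.Helper77.sup_eq_top_and_isDefectGroup_inf hM N hNi b hb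
    hstab B hBc' P hPD
  have hab : ∀ x y : G ⧸ N, x * y = y * x := quot_comm_of_sup N P h1 hPab
  obtain ⟨y, hy, hnv⟩ := hmajor
  have hyN : y ∈ N := by
    by_contra h
    exact hy (Cfsg.Agent.Lib.Helper77.dvd_orderOf_of_not_mem N hNi h)
  have hres : ∀ χ ∈ B, Cfsg.IsIrrCharacter N (fun n : N => (χ : G → ℂ) n) := fun χ hχ =>
    res_irr_of_nonvanishing N hab P h1 hyN χ.2 (fun x hx => hnv x hx χ hχ)
  have h3 : ∀ χ ∈ B, ∃ θ ∈ b, ∀ n : N, (χ : G → ℂ) n = (θ : N → ℂ) n := by
    intro χ hχ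
    obtain ⟨θ', hθ', hne⟩ :=
      Cfsg.Agent.Lib.Helper16.cover_all N hMp hB hb hχ₀ hθ₀ hcon₀ hχ
    rw [Cfsg.Agent.Lib.Helper80.classInner_irr_fun (hres χ hχ) θ'.2] at hne
    have heq : (fun n : N => (χ : G → ℂ) n) = θ'.1 := by
      by_contra h
      rw [if_neg h] at hne
      exact hne rfl
    exact ⟨θ', hθ', fun n => congrFun heq n⟩
  have hover : ∀ (χ : Cfsg.IrrCharacter G) (θ : Cfsg.IrrCharacter N), θ ∈ b →
      Cfsg.classInner (fun n : N => (χ : G → ℂ) n) (θ : N → ℂ) ≠ 0 → χ ∈ B :=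
    fun χ θ hθ hcon => Cfsg.Agent.Lib.Helper77.mem_of_over_of_blockCoeff_eq N b B hBc' hθ hcon
  have hmemB : ∀ (χ : Cfsg.IrrCharacter G) (θ : Cfsg.IrrCharacter N), θ ∈ b →
      (∀ n : N, (χ : G → ℂ) n = (θ : N → ℂ) n) → χ ∈ B := by
    intro χ θ hθ hc
    apply hover χ θ hθ
    have h1 : (fun n : N => (χ : G → ℂ) n) = θ.1 := funext hc
    rw [h1, Cfsg.Agent.Lib.Helper80.classInner_self θ.2]
    exact one_ne_zero
  have h4 : ∀ θ ∈ b, Nat.card {χ : Cfsg.IrrCharacter G //
      χ ∈ B ∧ ∀ n : N, (χ : G → ℂ) n = (θ : N → ℂ) n} = N.index := by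
    intro θ hθ
    rw [← card_ext_eq_index N θ.2 (fun χ hcon => by
      have hχB := hover χ θ hθ hcon
      rw [Cfsg.Agent.Lib.Helper80.classInner_irr_fun (hres χ hχB) θ.2] at hcon
      have heq : (fun n : N => (χ : G → ℂ) n) = θ.1 := by
        by_contra h
        rw [if_neg h] at hcon
        exact hcon rfl
      exact fun n => congrFun heq n)]
    exact Nat.card_congr (Equiv.subtypeEquivRight (fun χ =>
      ⟨fun h => h.2, fun h => ⟨hmemB χ θ hθ h, h⟩⟩))
  have h5 : Nat.card B = N.index * Nat.card b := by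
    have hfb : Fintype b := Fintype.ofFinite _
    choose r hr hr' using h3
    let R : B → b := fun χ => ⟨r χ.1 χ.2, hr χ.1 χ.2⟩
    rw [Nat.card_congr (Equiv.sigmaFiberEquiv R).symm, Nat.card_sigma]
    have hfib : ∀ θ : b, Nat.card {χ : B // R χ = θ} = N.index := by
      intro θ
      rw [← h4 θ.1 θ.2]
      refine Nat.card_congr ⟨fun χ => ⟨χ.1.1, χ.1.2, fun n => ?_⟩,
        fun χ => ⟨⟨χ.1, χ.2.1⟩, ?_⟩, fun χ => rfl, fun χ => rfl⟩
      · exact (hr' χ.1.1 χ.1.2 n).trans
          (congrArg (fun t : b => ((t : Cfsg.IrrCharacter N) : N → ℂ) n) χ.2)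
      · apply Subtype.ext
        apply Subtype.ext
        funext n
        have := hr' χ.1 χ.2.1 n
        show ((r χ.1 χ.2.1 : Cfsg.IrrCharacter N) : N → ℂ) n = _
        rw [← this, χ.2.2 n]
    rw [Finset.sum_congr rfl (fun θ _ => hfib θ), Finset.sum_const, Finset.card_univ,
      smul_eq_mul, Nat.card_eq_fintype_card, mul_comm]
  have h6 : Cfsg.blockRank p B = Cfsg.blockRank p b := by
    unfold Cfsg.blockRank
    have himg : (fun χ : Cfsg.IrrCharacter G => Cfsg.pRegularPart p (χ : G → ℂ)) '' B =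
        (ext0L N) '' ((fun θ : Cfsg.IrrCharacter N => Cfsg.pRegularPart p (θ : N → ℂ)) '' b) := by
      ext f
      constructor
      · rintro ⟨χ, hχ, rfl⟩
        obtain ⟨θ, hθ, hc⟩ := h3 χ hχ
        exact ⟨_, ⟨θ, hθ, rfl⟩, ext0L_pRegularPart N p hNi hc⟩
      · rintro ⟨_, ⟨θ, hθ, rfl⟩, rfl⟩
        have hpos : 0 < Nat.card {χ : Cfsg.IrrCharacter G //
            χ ∈ B ∧ ∀ n : N, (χ : G → ℂ) n = (θ : N → ℂ) n} := by
          rw [h4 θ hθ]
          obtain ⟨k, hk⟩ := hNi
          rw [hk]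
          exact pow_pos (Fact.out : p.Prime).pos k
        obtain ⟨⟨χ, hχ, hc⟩⟩ := (Nat.card_pos_iff.1 hpos).1
        exact ⟨χ, hχ, (ext0L_pRegularPart N p hNi hc).symm⟩
    rw [himg, ← Submodule.map_span]
    exact (LinearEquiv.finrank_eq
      (Submodule.equivMapOfInjective (ext0L N) (ext0L_injective N) _)).symm
  exact ⟨h1, h2, h3, h4, h5, h6⟩

end Main

end Cfsg.Agent.Lib.Helper3.AbDef
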