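import Mathlib
import Cfsg.Prelude.Def_Characters
import Cfsg.Agent.Lib.Helper80.Complete

set_option autoImplicit false

/-!
The fixed-point character: if `Γ` normalises `K`, then `y ↦ |K|⁻¹ ∑_{h ∈ K} χ (h y)` is a
character of `Γ` for every character `χ` of the ambient group (the character of the fixed points
of `K`).
-/

namespace Cfsg.Agent.Lib.Helper3.AvgChar

universe u

variable {G : Type u} [Group G] [Fintype G]

open Classical in
theorem isCharacter_avg (K Γ : Subgroup G) (hΓ : Γ ≤ Subgroup.normalizer (K : Set G))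
    {χ : G → ℂ} (hχ : Cfsg.IsCharacter G χ) :
    Cfsg.IsCharacter Γ
      (fun y : Γ => (Nat.card K : ℂ)⁻¹ * ∑ h : G, if h ∈ K then χ (h * y) else 0) := by
  obtain ⟨n, ρ, rfl⟩ := hχ
  set e : (Fin n → ℂ) →ₗ[ℂ] (Fin n → ℂ) :=
    (Nat.card K : ℂ)⁻¹ • ∑ h : G, (if h ∈ K then ρ h else 0) with he
  let W : Submodule ℂ (Fin n → ℂ) :=
    { carrier := {v | ∀ h ∈ K, ρ h v = v}
      zero_mem' := by intro h _; simp
      add_mem' := by
        intro v w hv hw h hh
        rw [map_add, hv h hh, hw h hh]
      smul_mem' := by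
        intro c v hv h hh
        rw [map_smul, hv h hh] }
  have hWmem : ∀ v, v ∈ W ↔ ∀ h ∈ K, ρ h v = v := fun v => Iff.rfl
  have hcard : (Nat.card K : ℂ) ≠ 0 := by exact_mod_cast Nat.card_pos.ne'
  have he_apply : ∀ v, e v = (Nat.card K : ℂ)⁻¹ • ∑ h : G, (if h ∈ K then ρ h v else 0) := by
    intro v
    rw [he, LinearMap.smul_apply, LinearMap.sum_apply]
    congr 1
    apply Finset.sum_congr rfl
    intro h _
    split_ifs <;> simp
  have he_mem : ∀ v, e v ∈ W := by
    intro v k hk
    rw [he_apply, map_smul, map_sum]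
    congr 1
    have h1 : ∀ h : G, ρ k (if h ∈ K then ρ h v else 0) = if k * h ∈ K then ρ (k * h) v else 0 := by
      intro h
      have hiff : k * h ∈ K ↔ h ∈ K := by
        constructor
        · intro hkh
          have : h = k⁻¹ * (k * h) := by group
          rw [this]; exact mul_mem (inv_mem hk) hkh
        · intro hh; exact mul_mem hk hh
      by_cases hh : h ∈ K
      · rw [if_pos hh, if_pos (hiff.mpr hh), map_mul]; rfl
      · rw [if_neg hh, if_neg (fun h' => hh (hiff.mp h')), map_zero]
    simp_rw [h1]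
    exact Fintype.sum_equiv (Equiv.mulLeft k) _ _ (fun h => rfl)
  have he_id : ∀ v ∈ W, e v = v := by
    intro v hv
    rw [he_apply]
    have h1 : ∀ h : G, (if h ∈ K then ρ h v else 0) = if h ∈ K then v else 0 := by
      intro h
      by_cases hh : h ∈ K
      · rw [if_pos hh, if_pos hh, hv h hh]
      · rw [if_neg hh, if_neg hh]
    simp_rw [h1]
    rw [← Finset.sum_filter, Finset.sum_const]
    have h2 : (Finset.univ.filter (fun h : G => h ∈ K)).card = Nat.card K :=
      (Nat.subtype_card _ (by simp)).symm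
    rw [h2, ← Nat.cast_smul_eq_nsmul ℂ, smul_smul, inv_mul_cancel₀ hcard, one_smul]
  have hW : ∀ y : Γ, W ≤ W.comap ((ρ.comp Γ.subtype) y) := by
    intro y v hv
    rw [Submodule.mem_comap, hWmem]
    intro h hh
    have hy : (y : G)⁻¹ ∈ Subgroup.normalizer (K : Set G) := inv_mem (hΓ y.2)
    have h1 : (y : G)⁻¹ * h * (y : G) ∈ K := by
      have := (Subgroup.mem_normalizer_iff.mp hy h).mp hh
      simpa using this
    have h2 := hv _ h1
    show ρ h (ρ (y : G) v) = ρ (y : G) v
    calc ρ h (ρ (y : G) v) = ρ (h * (y : G)) v := by rw [map_mul]; rfl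
      _ = ρ ((y : G) * ((y : G)⁻¹ * h * (y : G))) v := by congr 2; group
      _ = ρ (y : G) (ρ ((y : G)⁻¹ * h * (y : G)) v) := by rw [map_mul]; rfl
      _ = ρ (y : G) v := by rw [h2]
  let σ : Representation ℂ Γ W := Representation.subrepresentation (ρ.comp Γ.subtype) W hW
  have hchar : ∀ y : Γ, σ.character y =
      (Nat.card K : ℂ)⁻¹ * ∑ h : G, if h ∈ K then ρ.character (h * y) else 0 := by
    intro y
    have hf : ∀ x, (ρ (y : G) ∘ₗ e) x ∈ W := fun x => hW y (he_mem x)
    have h1 := LinearMap.trace_restrict_eq_of_forall_mem W (ρ (y : G) ∘ₗ e) hf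
    have h2 : (ρ (y : G) ∘ₗ e).restrict (fun x _ => hf x) = σ y := by
      ext v : 2
      show ρ (y : G) (e v) = ρ (y : G) v
      rw [he_id v v.2]
    have h5 : ρ (y : G) ∘ₗ e =
        (Nat.card K : ℂ)⁻¹ • ∑ h : G, (if h ∈ K then ρ ((y : G) * h) else 0) := by
      apply LinearMap.ext
      intro v
      rw [LinearMap.comp_apply, he_apply, map_smul, map_sum, LinearMap.smul_apply,
        LinearMap.sum_apply]
      congr 1
      apply Finset.sum_congr rfl
      intro h _
      by_cases hh : h ∈ K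
      · rw [if_pos hh, if_pos hh, map_mul]; rfl
      · rw [if_neg hh, if_neg hh, map_zero, LinearMap.zero_apply]
    show LinearMap.trace ℂ W (σ y) = _
    rw [← h2, h1, h5, map_smul, smul_eq_mul, map_sum]
    congr 1
    apply Finset.sum_congr rfl
    intro h _
    by_cases hh : h ∈ K
    · rw [if_pos hh, if_pos hh, Representation.char_mul_comm]
      rfl
    · rw [if_neg hh, if_neg hh, map_zero]
  have h3 := Cfsg.Agent.Lib.Helper80.isCharacter_of_rep σ
  have h4 : σ.character =
      (fun y : Γ => (Nat.card K : ℂ)⁻¹ * ∑ h : G, if h ∈ K then ρ.character (h * y) else 0) :=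
    funext hchar
  rw [← h4]
  exact h3

end Cfsg.Agent.Lib.Helper3.AvgChar
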