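import Mathlib
import Cfsg.Agent.Lib.Helper23.NilpParts
import Cfsg.Agent.Lib.Helper61.BG9a

/-!
Lemma Z for BG 9.5 (S1402) — helper3.

If the derived subgroup `⁅H, H⁆` is nilpotent and contains a `p`-element `e` with
`C_G(e) ≤ He`, and a Sylow `p`-subgroup `P` of `H` satisfies `P ≤ He` and `N_H(P) ≤ He`,
then `H ≤ He`.
-/

set_option autoImplicit false

namespace Cfsg.Agent.Lib.Helper3.BG95

open scoped commutatorElement

variable {G : Type*} [Group G]

/-- `p`-part / `p'`-part decomposition of an element of finite order. -/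
theorem exists_pPart_mul (p : ℕ) [Fact p.Prime] (n : G) (hn : IsOfFinOrder n) :
    ∃ a b : G, a ∈ Subgroup.zpowers n ∧ b ∈ Subgroup.zpowers n ∧ n = a * b ∧
      IsPGroup p (Subgroup.zpowers a) ∧ (orderOf b).Coprime p := by
  have hp : p.Prime := Fact.out
  have ho : orderOf n ≠ 0 := (orderOf_pos_iff.mpr hn).ne'
  obtain ⟨k, m, hm, hkm⟩ := Nat.exists_eq_pow_mul_and_not_dvd ho p hp.ne_one
  have hcop : Nat.Coprime (p ^ k) m :=
    Nat.Coprime.pow_left k ((Nat.Prime.coprime_iff_not_dvd hp).mpr hm)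
  obtain ⟨u, v, huv⟩ : IsCoprime ((p ^ k : ℕ) : ℤ) (m : ℤ) := Nat.isCoprime_iff_coprime.mpr hcop
  refine ⟨n ^ (v * (m : ℤ)), n ^ (u * ((p ^ k : ℕ) : ℤ)), ⟨_, rfl⟩, ⟨_, rfl⟩, ?_, ?_, ?_⟩
  · rw [← zpow_add, add_comm, huv, zpow_one]
  · apply Cfsg.Agent.Lib.Helper23.isPGroup_zpowers_of_pow (k := k)
    rw [← zpow_natCast, ← zpow_mul]
    have h3 : v * (m : ℤ) * ((p ^ k : ℕ) : ℤ) = ((orderOf n : ℕ) : ℤ) * v := by
      rw [hkm]; push_cast; ring
    rw [h3, zpow_mul, zpow_natCast, pow_orderOf_eq_one, one_zpow]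
  · have h1 : (n ^ (u * ((p ^ k : ℕ) : ℤ))) ^ m = 1 := by
      rw [← zpow_natCast, ← zpow_mul]
      have h3 : u * ((p ^ k : ℕ) : ℤ) * (m : ℤ) = ((orderOf n : ℕ) : ℤ) * u := by
        rw [hkm]; push_cast; ring
      rw [h3, zpow_mul, zpow_natCast, pow_orderOf_eq_one, one_zpow]
    have h2 : orderOf (n ^ (u * ((p ^ k : ℕ) : ℤ))) ∣ m := orderOf_dvd_of_pow_eq_one h1
    exact Nat.Coprime.coprime_dvd_left h2 ((Nat.Prime.coprime_iff_not_dvd hp).mpr hm).symm

/-- `⁅H, H⁆ ≤ H`. -/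
theorem commutator_self_le (H : Subgroup G) : ⁅H, H⁆ ≤ H :=
  Subgroup.commutator_le.mpr (fun g₁ h₁ g₂ h₂ => by
    rw [commutatorElement_def]
    exact H.mul_mem (H.mul_mem (H.mul_mem h₁ h₂) (H.inv_mem h₁)) (H.inv_mem h₂))

/-- Any subgroup between `⁅H, H⁆` and `H` is normalized by `H`. -/
theorem le_normalizer_of_commutator_le {H N : Subgroup G} (hDN : ⁅H, H⁆ ≤ N) (hNH : N ≤ H) :
    H ≤ Subgroup.normalizer (N : Set G) := by
  apply Cfsg.Agent.Lib.Helper23.le_normalizer_of_conj_mem'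
  intro h hh x hx
  have h1 : ⁅h, x⁆ ∈ ⁅H, H⁆ := Subgroup.commutator_mem_commutator hh (hNH hx)
  have h2 : h * x * h⁻¹ = ⁅h, x⁆ * x := by
    rw [commutatorElement_def]; group
  rw [h2]
  exact N.mul_mem (hDN h1) hx

/-- Glue for `S1451`: nilpotency of `commutator ↥H` gives nilpotency of `⁅H, H⁆`. -/
theorem isNilpotent_commutator_of_subtype (H : Subgroup G)
    (h : Group.IsNilpotent ↥(commutator ↥H)) : Group.IsNilpotent ↥⁅H, H⁆ := by
  have h1 : (commutator ↥H).map H.subtype = ⁅H, H⁆ := by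
    rw [commutator_def, Subgroup.map_commutator, ← MonoidHom.range_eq_map, Subgroup.range_subtype]
  rw [← h1]
  exact (Group.isNilpotent_congr
    (Subgroup.equivMapOfInjective (commutator ↥H) H.subtype H.subtype_injective)).mp h

/-- **Lemma Z**, ambient-Sylow form. -/
theorem lemmaZ_of_isSylIn [Finite G] (p : ℕ) [Fact p.Prime] (H He : Subgroup G)
    (hnil : Group.IsNilpotent ↥⁅H, H⁆) (e : G) (heD : e ∈ ⁅H, H⁆)
    (hep : IsPGroup p (Subgroup.zpowers e))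
    (hCe : Subgroup.centralizer {e} ≤ He)
    (P : Subgroup G) (hP : Cfsg.Agent.Lib.Helper61.IsSylIn p P H) (hPHe : P ≤ He)
    (hNP : H ⊓ Subgroup.normalizer (P : Set G) ≤ He) : H ≤ He := by
  have hp : p.Prime := Fact.out
  have hDH : ⁅H, H⁆ ≤ H := commutator_self_le H
  have hHND : H ≤ Subgroup.normalizer ((⁅H, H⁆ : Subgroup G) : Set G) :=
    le_normalizer_of_commutator_le le_rfl hDH
  obtain ⟨T, hT⟩ := Cfsg.Agent.Lib.Helper23.exists_isRPart ⁅H, H⁆ hnil p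
  have hHNT : H ≤ Subgroup.normalizer (T : Set G) := hHND.trans hT.normalizer_le
  -- the `p`-part of the derived subgroup lies in `P`
  have hTP : T ≤ P := by
    have h1 : IsPGroup p (P ⊔ T : Subgroup G) :=
      IsPGroup.to_sup_of_normal_right' hP.2.1 hT.2.1 (hP.1.trans hHNT)
    have h2 : P ⊔ T = P := hP.2.2 (P ⊔ T) h1 le_sup_left (sup_le hP.1 (hT.1.trans hDH))
    rw [← h2]
    exact le_sup_right
  -- the derived subgroup lies in `He`
  have hDHe : ⁅H, H⁆ ≤ He := by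
    intro n hn
    obtain ⟨a, b, ha, hb, hab, hap, hbo⟩ := exists_pPart_mul p n (isOfFinOrder_of_finite n)
    have hzn : Subgroup.zpowers n ≤ ⁅H, H⁆ := Subgroup.zpowers_le.mpr hn
    have haT : a ∈ T := hT.2.2 a (hzn ha) hap
    have hbe : b * e = e * b := by
      apply Cfsg.Agent.Lib.Helper23.comm_of_coprime_orderOf hnil (hzn hb) heD
      obtain ⟨j, hj⟩ := Cfsg.Agent.Lib.Helper23.exists_pow_of_isPGroup_zpowers hep
      have h1 : orderOf e ∣ p ^ j := orderOf_dvd_of_pow_eq_one hj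
      exact Nat.Coprime.coprime_dvd_right h1 (Nat.Coprime.pow_right j hbo)
    have hbC : b ∈ Subgroup.centralizer {e} := by
      rw [Subgroup.mem_centralizer_iff]
      intro x hx
      rw [Set.mem_singleton_iff] at hx
      rw [hx]
      exact hbe.symm
    rw [hab]
    exact He.mul_mem (hPHe (hTP haT)) (hCe hbC)
  -- Frattini argument in `P ⊔ ⁅H, H⁆`
  have hNH : P ⊔ ⁅H, H⁆ ≤ H := sup_le hP.1 hDH
  have hHN : H ≤ Subgroup.normalizer ((P ⊔ ⁅H, H⁆ : Subgroup G) : Set G) :=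
    le_normalizer_of_commutator_le le_sup_right hNH
  have hPN : Cfsg.Agent.Lib.Helper61.IsSylIn p P (P ⊔ ⁅H, H⁆) :=
    ⟨le_sup_left, hP.2.1, fun Q hQ hPQ hQN => hP.2.2 Q hQ hPQ (hQN.trans hNH)⟩
  intro h hh
  obtain ⟨n, hn, hnh⟩ := Cfsg.Agent.Lib.Helper61.bg_frattini hPN (hHN hh)
  have h1 : n⁻¹ * h ∈ He := hNP ⟨H.mul_mem (H.inv_mem (hNH hn)) hh, hnh⟩
  have h2 : n ∈ He := (sup_le hPHe hDHe) hn
  have h3 : h = n * (n⁻¹ * h) := by group
  rw [h3]
  exact He.mul_mem h2 h1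

/-- **Lemma Z** (helper46, note 1856), with `P` a Sylow `p`-subgroup of `G`. -/
theorem lemmaZ [Finite G] (p : ℕ) [Fact p.Prime] (H He : Subgroup G)
    (hnil : Group.IsNilpotent ↥⁅H, H⁆) (e : G) (heD : e ∈ ⁅H, H⁆)
    (hep : IsPGroup p (Subgroup.zpowers e))
    (hCe : Subgroup.centralizer {e} ≤ He)
    (P : Sylow p G) (hPH : (P : Subgroup G) ≤ H) (hPHe : (P : Subgroup G) ≤ He)
    (hNP : Subgroup.normalizer ((P : Subgroup G) : Set G) ≤ He) : H ≤ He :=
  lemmaZ_of_isSylIn p H He hnil e heD hep hCe (P : Subgroup G)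
    ⟨hPH, P.isPGroup', fun _ hQ hPQ _ => P.is_maximal' hQ hPQ⟩ hPHe
    (inf_le_right.trans hNP)

/-- **Lemma Z** with the nilpotency hypothesis in the form delivered by `S1451`. -/
theorem lemmaZ' [Finite G] (p : ℕ) [Fact p.Prime] (H He : Subgroup G)
    (hnil : Group.IsNilpotent ↥(commutator ↥H)) (e : G) (heD : e ∈ ⁅H, H⁆)
    (hep : IsPGroup p (Subgroup.zpowers e))
    (hCe : Subgroup.centralizer {e} ≤ He)
    (P : Sylow p G) (hPH : (P : Subgroup G) ≤ H) (hPHe : (P : Subgroup G) ≤ He)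
    (hNP : Subgroup.normalizer ((P : Subgroup G) : Set G) ≤ He) : H ≤ He :=
  lemmaZ p H He (isNilpotent_commutator_of_subtype H hnil) e heD hep hCe P hPH hPHe hNP

end Cfsg.Agent.Lib.Helper3.BG95
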