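import Mathlib
import Cfsg.Prelude.Def_Characters
import Cfsg.Agent.Lib.Helper3.BrauerMain
import Cfsg.Agent.Lib.Helper3.Monomial

set_option autoImplicit false

namespace Cfsg.Agent.Lib.Helper3

open scoped ComplexConjugate

universe u

variable {G : Type u} [Group G] [Fintype G]

omit [Fintype G] [Group G] in
theorem neg_list_map_sum {α : Type*} (l : List α) (g : α → G → ℂ) :
    -(l.map g).sum = (l.map (fun t => -g t)).sum := by
  induction l with
  | nil => simp
  | cons a l ih =>
    rw [List.map_cons, List.sum_cons, List.map_cons, List.sum_cons, neg_add, ih]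

/-- **Brauer's induction theorem**, list form with linear characters, assuming that
elementary groups are nilpotent and closed under subgroups. -/
theorem brauer_induction_aux
    (hnil : ∀ (E : Subgroup G) (p : ℕ), p.Prime → Cfsg.IsElementary p E → Group.IsNilpotent E)
    (hsub : ∀ (E : Subgroup G) (p : ℕ), p.Prime → Cfsg.IsElementary p E →
      ∀ F : Subgroup E, Cfsg.IsElementary p F)
    (χ : G → ℂ) (hχ : Cfsg.IsCharacter G χ) :
    ∃ l : List ((E : Subgroup G) × ((E →* ℂˣ) × ℤ)),
      (∀ t ∈ l, ∃ p : ℕ, p.Prime ∧ Cfsg.IsElementary p t.1) ∧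
      χ = (l.map fun t => (t.2.2 : ℂ) • Cfsg.indFun t.1 (fun e => (t.2.1 e : ℂ))).sum := by
  classical
  have hmem := mem_indSpan_elementary_of_isCharacter hχ
  clear hχ
  unfold indSpan at hmem
  induction hmem using AddSubgroup.closure_induction with
  | mem f hf =>
    obtain ⟨E, ⟨p, hp, hEl⟩, φ, hφ, rfl⟩ := hf
    have : Fintype E := Fintype.ofFinite E
    have : Fintype (Cfsg.IrrCharacter E) := Fintype.ofFinite _
    have : Group.IsNilpotent E := hnil E p hp hEl
    obtain ⟨m, hm⟩ := exists_mult_of_isCharacter hφ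
    have hmono : ∀ ψ : Cfsg.IrrCharacter E, ∃ (F : Subgroup E) (μ : F →* ℂˣ),
        (ψ : E → ℂ) = Cfsg.indFun F (fun h => (μ h : ℂ)) :=
      fun ψ => nilpotent_monomial_aux (Nat.card E) E rfl ψ ψ.2
    choose F μ hFμ using hmono
    let t : Cfsg.IrrCharacter E → ((E' : Subgroup G) × ((E' →* ℂˣ) × ℤ)) := fun ψ =>
      ⟨(F ψ).map E.subtype, ((μ ψ).comp (Subgroup.equivMapOfInjective (F ψ) E.subtype
        E.subtype_injective).symm.toMonoidHom, (m ψ : ℤ))⟩
    refine ⟨Finset.univ.toList.map t, ?_, ?_⟩
    · intro s hs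
      rw [List.mem_map] at hs
      obtain ⟨ψ, -, rfl⟩ := hs
      exact ⟨p, hp, isElementary_of_mulEquiv (Subgroup.equivMapOfInjective (F ψ) E.subtype
        E.subtype_injective) (hsub E p hp hEl (F ψ))⟩
    · rw [List.map_map, hm, indFun_sum, ← Finset.sum_map_toList]
      congr 1
      apply List.map_congr_left
      intro ψ _
      rw [indFun_smul]
      conv_lhs => rw [hFμ ψ]
      rw [indFun_trans' E (F ψ)]
      simp only [Function.comp_apply, t, Int.cast_natCast]
      rfl
  | zero => exact ⟨[], by simp, by simp⟩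
  | add a b _ _ iha ihb =>
    obtain ⟨la, hla, ha⟩ := iha
    obtain ⟨lb, hlb, hb⟩ := ihb
    refine ⟨la ++ lb, ?_, ?_⟩
    · intro t ht
      rcases List.mem_append.mp ht with h | h
      · exact hla t h
      · exact hlb t h
    · rw [List.map_append, List.sum_append, ← ha, ← hb]
  | neg a _ ih =>
    obtain ⟨l, hl, ha⟩ := ih
    refine ⟨l.map (fun t => ⟨t.1, (t.2.1, -t.2.2)⟩), ?_, ?_⟩
    · intro t ht
      rw [List.mem_map] at ht
      obtain ⟨s, hs, rfl⟩ := ht
      exact hl s hs
    · rw [List.map_map, ha, neg_list_map_sum]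
      congr 1
      apply List.map_congr_left
      intro s _
      simp only [Function.comp_apply, Int.cast_neg, neg_smul]

end Cfsg.Agent.Lib.Helper3
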