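import Mathlib
import Cfsg.Agent.Lib.Helper1.SZInternal

set_option autoImplicit false

/-!
Coprime conjugation in a coset: if `a` normalises `K` and has order prime to `|K|`, every
element of the coset `K a` is `K`-conjugate to an element of `C_K(a) a`, and sums of a class
function over `K a` reduce to sums over `C_K(a) a`.
-/

namespace Cfsg.Agent.Lib.Helper3.CopConj

open Pointwise

universe u

variable {G : Type u} [Group G]

theorem mem_centralizer_singleton {a g : G} :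
    g ∈ Subgroup.centralizer ({a} : Set G) ↔ a * g = g * a := by
  simp [Subgroup.mem_centralizer_iff]

/-- In a coset `K a` with `a` normalising `K`, powers stay in the corresponding cosets. -/
theorem pow_mem_coset {K : Subgroup G} {a h : G} (ha : a ∈ Subgroup.normalizer (K : Set G))
    (hh : h ∈ K) (j : ℕ) : ∃ h' ∈ K, (h * a) ^ j = h' * a ^ j := by
  induction j with
  | zero => exact ⟨1, one_mem _, by simp⟩
  | succ j ih =>
    obtain ⟨h', hh', e⟩ := ih
    refine ⟨h' * (a ^ j * h * (a ^ j)⁻¹), mul_mem hh' ?_, ?_⟩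
    · exact (Subgroup.mem_normalizer_iff.mp (pow_mem ha j) h).mp hh
    · rw [pow_succ, e, pow_succ]; group

theorem conj_mem_of_mem_normalizer {K : Subgroup G} {a h : G}
    (ha : a ∈ Subgroup.normalizer (K : Set G)) (hh : h ∈ K) : a * h * a⁻¹ ∈ K :=
  (Subgroup.mem_normalizer_iff.mp ha h).mp hh

theorem eq_one_of_mem_zpowers_of_mem [Finite G] {K : Subgroup G} {a x : G}
    (hcop : (orderOf a).Coprime (Nat.card K)) (hx : x ∈ Subgroup.zpowers a) (hxK : x ∈ K) :
    x = 1 := by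
  apply Cfsg.Agent.Lib.Helper1.eq_one_of_mem_of_coprime (A := Subgroup.zpowers a) (N := K) _ hx hxK
  rw [Nat.card_zpowers]; exact hcop

/-- If `u ∈ K` commutes with `a` then `(u a)^m = a` for `m ≡ 1 mod o(a)`, `m ≡ 0 mod |K|`. -/
theorem pow_mul_eq [Finite G] {K : Subgroup G} {a u : G} {m : ℕ}
    (hm1 : m ≡ 1 [MOD orderOf a]) (hm0 : m ≡ 0 [MOD Nat.card K]) (hu : u ∈ K)
    (hc : Commute u a) : (u * a) ^ m = a := by
  rw [hc.mul_pow]
  have h1 : u ^ m = 1 := by
    obtain ⟨t, rfl⟩ := (Nat.modEq_zero_iff_dvd).mp hm0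
    rw [pow_mul, orderOf_dvd_iff_pow_eq_one.mp (Subgroup.orderOf_dvd_natCard K hu), one_pow]
  have h2 : a ^ m = a := by
    have h3 := pow_eq_pow_iff_modEq.mpr hm1
    simpa using h3
  rw [h1, h2, one_mul]

/-- Every element of the coset `K a` is `K`-conjugate into `C_K(a) a`. -/
theorem exists_conj_mem_centralizer_coset [Finite G] (K : Subgroup G) (a : G)
    (ha : a ∈ Subgroup.normalizer (K : Set G)) (hcop : (orderOf a).Coprime (Nat.card K))
    (h : G) (hh : h ∈ K) :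
    ∃ v ∈ K, ∃ u ∈ K, Commute u a ∧ v * (h * a) * v⁻¹ = u * a := by
  classical
  obtain ⟨m, hm1, hm0⟩ := Nat.chineseRemainder hcop 1 0
  have ham : a ^ m = a := by
    have h3 := pow_eq_pow_iff_modEq.mpr hm1
    simpa using h3
  have hK1 : ∀ x ∈ K, x ^ m = 1 := by
    intro x hx
    obtain ⟨t, rfl⟩ := (Nat.modEq_zero_iff_dvd).mp hm0
    rw [pow_mul, orderOf_dvd_iff_pow_eq_one.mp (Subgroup.orderOf_dvd_natCard K hx), one_pow]
  set y := h * a with hy
  -- `y ^ n ∈ K`
  obtain ⟨h1, hh1, e1⟩ := pow_mem_coset ha hh (orderOf a)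
  rw [pow_orderOf_eq_one, mul_one] at e1
  obtain ⟨h2, hh2, e2⟩ := pow_mem_coset ha hh m
  rw [ham] at e2
  -- order of `y ^ m`
  have hord : orderOf (y ^ m) = orderOf a := by
    apply Nat.dvd_antisymm
    · apply orderOf_dvd_of_pow_eq_one
      rw [← pow_mul, mul_comm, pow_mul, hy, e1]
      exact hK1 h1 hh1
    · have hj : (y ^ m) ^ orderOf (y ^ m) = 1 := pow_orderOf_eq_one _
      rw [← pow_mul] at hj
      obtain ⟨h3, hh3, e3⟩ := pow_mem_coset ha hh (m * orderOf (y ^ m))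
      rw [← hy, hj] at e3
      have h4 : a ^ (m * orderOf (y ^ m)) ∈ K := by
        have : a ^ (m * orderOf (y ^ m)) = h3⁻¹ := eq_inv_of_mul_eq_one_right e3.symm
        rw [this]; exact inv_mem hh3
      have h5 := eq_one_of_mem_zpowers_of_mem hcop
        (Subgroup.pow_mem _ (Subgroup.mem_zpowers a) _) h4
      have h6 : orderOf a ∣ m * orderOf (y ^ m) := orderOf_dvd_of_pow_eq_one h5
      have h7 : (orderOf a).Coprime m := by
        have := hm1.gcd_eq
        rw [Nat.Coprime, Nat.gcd_comm, this]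
        simp
      exact h7.dvd_of_dvd_mul_left h6
  have hAN : Subgroup.zpowers a ≤ Subgroup.normalizer (K : Set G) :=
    (Subgroup.zpowers_le).mpr ha
  have hcop' : (Nat.card (Subgroup.zpowers a)).Coprime (Nat.card K) := by
    rw [Nat.card_zpowers]; exact hcop
  have hsolv : Group.IsSolvable (Subgroup.zpowers a) ∨ Group.IsSolvable K := by
    left
    apply Group.isSolvable_of_comm
    rintro ⟨x, hx⟩ ⟨z, hz⟩
    obtain ⟨i, rfl⟩ := Subgroup.mem_zpowers_iff.mp hx
    obtain ⟨j, rfl⟩ := Subgroup.mem_zpowers_iff.mp hz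
    exact Subtype.ext (zpow_mul_comm a i j)
  have hA₁ : Subgroup.zpowers (y ^ m) ≤ K ⊔ Subgroup.zpowers a := by
    rw [Subgroup.zpowers_le]
    apply pow_mem
    rw [hy]
    exact mul_mem (Subgroup.mem_sup_left hh) (Subgroup.mem_sup_right (Subgroup.mem_zpowers a))
  have hcard : Nat.card (Subgroup.zpowers (y ^ m)) = Nat.card (Subgroup.zpowers a) := by
    rw [Nat.card_zpowers, Nat.card_zpowers, hord]
  obtain ⟨v, hv, hconj⟩ := Cfsg.Agent.Lib.Helper1.sz_conj_internal K (Subgroup.zpowers a)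
    (Subgroup.zpowers (y ^ m)) hAN hcop' hsolv hA₁ hcard
  have hmem : v * y ^ m * v⁻¹ ∈ Subgroup.zpowers a := by
    rw [← hconj, Cfsg.Agent.Lib.Helper1.mem_conj_smul]
    have : v⁻¹ * (v * y ^ m * v⁻¹) * v = y ^ m := by group
    rw [this]; exact Subgroup.mem_zpowers _
  have hva : a * v⁻¹ * a⁻¹ ∈ K := conj_mem_of_mem_normalizer ha (inv_mem hv)
  -- `v y^m v⁻¹ = a`
  have hkey : v * y ^ m * v⁻¹ = a := by
    have h8 : v * y ^ m * v⁻¹ * a⁻¹ ∈ K := by
      have : v * y ^ m * v⁻¹ * a⁻¹ = v * h2 * (a * v⁻¹ * a⁻¹) := by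
        rw [hy, e2]; group
      rw [this]
      exact mul_mem (mul_mem hv hh2) hva
    have h9 : v * y ^ m * v⁻¹ * a⁻¹ ∈ Subgroup.zpowers a :=
      mul_mem hmem (inv_mem (Subgroup.mem_zpowers a))
    have h10 := eq_one_of_mem_zpowers_of_mem hcop h9 h8
    exact mul_inv_eq_one.mp h10
  refine ⟨v, hv, v * h * (a * v⁻¹ * a⁻¹), mul_mem (mul_mem hv hh) hva, ?_, by rw [hy]; group⟩
  -- commutation
  have hc1 : Commute (v * y * v⁻¹) a := by
    have : (v * y * v⁻¹) ^ m = a := by rw [conj_pow, hkey]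
    rw [← this]
    exact Commute.pow_right (Commute.refl _) m
  have e : v * y * v⁻¹ = v * h * (a * v⁻¹ * a⁻¹) * a := by rw [hy]; group
  rw [e] at hc1
  have hc2 : v * h * (a * v⁻¹ * a⁻¹) * a * a = a * (v * h * (a * v⁻¹ * a⁻¹) * a) := hc1.eq
  show v * h * (a * v⁻¹ * a⁻¹) * a = a * (v * h * (a * v⁻¹ * a⁻¹))
  have := mul_right_cancel (b := a) (by rw [hc2]; group :
    v * h * (a * v⁻¹ * a⁻¹) * a * a = a * (v * h * (a * v⁻¹ * a⁻¹)) * a)
  exact this

section sums

variable [Fintype G]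

open Classical in
theorem sum_ite_mem_const (S : Subgroup G) (x : ℂ) :
    ∑ g : G, (if g ∈ S then x else 0) = (Nat.card S : ℂ) * x := by
  rw [← Finset.sum_filter, Finset.sum_const, nsmul_eq_mul]
  congr 2
  exact (Nat.subtype_card _ (by simp)).symm

open Classical in
/-- Sums of a class function over the coset `K a` reduce to sums over `C_K(a) a`. -/
theorem sum_coset_eq (K : Subgroup G) (a : G)
    (ha : a ∈ Subgroup.normalizer (K : Set G)) (hcop : (orderOf a).Coprime (Nat.card K))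
    (F : G → ℂ) (hF : ∀ g x : G, F (x * g * x⁻¹) = F g) :
    (Nat.card ↥(K ⊓ Subgroup.centralizer ({a} : Set G)) : ℂ) *
        ∑ h : G, (if h ∈ K then F (h * a) else 0) =
      (Nat.card K : ℂ) *
        ∑ u : G, (if u ∈ K ⊓ Subgroup.centralizer ({a} : Set G) then F (u * a) else 0) := by
  set C : Subgroup G := K ⊓ Subgroup.centralizer ({a} : Set G) with hC
  obtain ⟨m, hm1, hm0⟩ := Nat.chineseRemainder hcop 1 0
  set D : ℂ := ∑ v : G, ∑ h : G,
    (if (v ∈ K ∧ h ∈ K ∧ v * h * (a * v⁻¹ * a⁻¹) ∈ C) then F (h * a) else 0) with hD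
  have hCmem : ∀ u : G, u ∈ C ↔ u ∈ K ∧ a * u = u * a := by
    intro u; rw [hC, Subgroup.mem_inf, mem_centralizer_singleton]
  have e1 : D = (Nat.card C : ℂ) * ∑ h : G, (if h ∈ K then F (h * a) else 0) := by
    rw [hD, Finset.sum_comm, Finset.mul_sum]
    apply Finset.sum_congr rfl
    intro h _
    by_cases hh : h ∈ K
    · rw [if_pos hh]
      obtain ⟨v₀, hv₀, u₀, hu₀, hcu₀, e⟩ := exists_conj_mem_centralizer_coset K a ha hcop h hh
      have hu₀C : u₀ ∈ C := (hCmem u₀).mpr ⟨hu₀, hcu₀.eq.symm⟩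
      have hiff : ∀ v : G, (v ∈ K ∧ h ∈ K ∧ v * h * (a * v⁻¹ * a⁻¹) ∈ C) ↔ v * v₀⁻¹ ∈ C := by
        intro v
        have e' : v * h * (a * v⁻¹ * a⁻¹) * a = (v * v₀⁻¹) * (u₀ * a) * (v * v₀⁻¹)⁻¹ := by
          rw [← e]; group
        constructor
        · rintro ⟨hv, -, hw⟩
          rw [hCmem] at hw ⊢
          refine ⟨mul_mem hv (inv_mem hv₀), ?_⟩
          have p1 : (v * h * (a * v⁻¹ * a⁻¹) * a) ^ m = a :=
            pow_mul_eq hm1 hm0 hw.1 hw.2.symm
          have p2 : (u₀ * a) ^ m = a := pow_mul_eq hm1 hm0 hu₀ hcu₀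
          rw [e', conj_pow, p2] at p1
          calc a * (v * v₀⁻¹) = ((v * v₀⁻¹) * a * (v * v₀⁻¹)⁻¹) * (v * v₀⁻¹) := by rw [p1]
            _ = (v * v₀⁻¹) * a := by group
        · intro hc
          have hc' := (hCmem _).mp hc
          have hv : v ∈ K := by
            have : v = (v * v₀⁻¹) * v₀ := by group
            rw [this]; exact mul_mem hc'.1 hv₀
          refine ⟨hv, hh, ?_⟩
          have hci : a * (v * v₀⁻¹)⁻¹ = (v * v₀⁻¹)⁻¹ * a := by
            calc a * (v * v₀⁻¹)⁻¹ = (v * v₀⁻¹)⁻¹ * ((v * v₀⁻¹) * a) * (v * v₀⁻¹)⁻¹ := by group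
              _ = (v * v₀⁻¹)⁻¹ * (a * (v * v₀⁻¹)) * (v * v₀⁻¹)⁻¹ := by rw [hc'.2]
              _ = (v * v₀⁻¹)⁻¹ * a := by group
          have e'' : v * h * (a * v⁻¹ * a⁻¹) * a = (v * v₀⁻¹) * u₀ * (v * v₀⁻¹)⁻¹ * a := by
            rw [e']
            calc (v * v₀⁻¹) * (u₀ * a) * (v * v₀⁻¹)⁻¹
                = (v * v₀⁻¹) * u₀ * (a * (v * v₀⁻¹)⁻¹) := by group
              _ = (v * v₀⁻¹) * u₀ * ((v * v₀⁻¹)⁻¹ * a) := by rw [hci]
              _ = (v * v₀⁻¹) * u₀ * (v * v₀⁻¹)⁻¹ * a := by group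
          rw [mul_right_cancel e'']
          exact mul_mem (mul_mem hc hu₀C) (inv_mem hc)
      rw [Finset.sum_congr rfl (fun v _ => if_congr (hiff v) rfl rfl)]
      rw [← sum_ite_mem_const C (F (h * a))]
      exact Fintype.sum_equiv (Equiv.mulRight v₀⁻¹) _ _ (fun v => rfl)
    · rw [if_neg hh, mul_zero]
      apply Finset.sum_eq_zero
      intro v _
      rw [if_neg]
      exact fun h' => hh h'.2.1
  have e2 : D = (Nat.card K : ℂ) * ∑ u : G, (if u ∈ C then F (u * a) else 0) := by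
    rw [hD]
    have key : ∀ v : G,
        ∑ h : G, (if (v ∈ K ∧ h ∈ K ∧ v * h * (a * v⁻¹ * a⁻¹) ∈ C) then F (h * a) else 0)
        = if v ∈ K then ∑ u : G, (if u ∈ C then F (u * a) else 0) else 0 := by
      intro v
      by_cases hv : v ∈ K
      · rw [if_pos hv]
        have hva : a * v⁻¹ * a⁻¹ ∈ K := conj_mem_of_mem_normalizer ha (inv_mem hv)
        apply Fintype.sum_equiv ((Equiv.mulLeft v).trans (Equiv.mulRight (a * v⁻¹ * a⁻¹)))
        intro h
        simp only [Equiv.trans_apply, Equiv.coe_mulLeft, Equiv.coe_mulRight]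
        have hF' : F (v * h * (a * v⁻¹ * a⁻¹) * a) = F (h * a) := by
          rw [← hF (h * a) v]; congr 1; group
        rw [hF']
        have hiff : (v ∈ K ∧ h ∈ K ∧ v * h * (a * v⁻¹ * a⁻¹) ∈ C) ↔
            v * h * (a * v⁻¹ * a⁻¹) ∈ C := by
          constructor
          · exact fun h' => h'.2.2
          · intro hw
            refine ⟨hv, ?_, hw⟩
            have hwK := ((hCmem _).mp hw).1
            have : h = v⁻¹ * (v * h * (a * v⁻¹ * a⁻¹)) * (a * v⁻¹ * a⁻¹)⁻¹ := by group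
            rw [this]; exact mul_mem (mul_mem (inv_mem hv) hwK) (inv_mem hva)
        exact if_congr hiff rfl rfl
      · rw [if_neg hv]
        apply Finset.sum_eq_zero
        intro h _
        rw [if_neg]
        exact fun h' => hv h'.1
    simp_rw [key]
    rw [sum_ite_mem_const]
  rw [← e1, e2]

end sums

end Cfsg.Agent.Lib.Helper3.CopConj
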