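import Mathlib

set_option autoImplicit false

/-!
Integrality of orbit sums: for a finite group acting on a finite set and an invariant
integer-valued function `f`, the sum of `|Stab x| / |Γ| * f x` is an integer (it is the sum
of `f` over orbit representatives).
-/

namespace Cfsg.Agent.Lib.Helper3.OrbitInt

theorem orbit_sum_int {Γ X : Type*} [Group Γ] [Fintype Γ] [Fintype X] [MulAction Γ X]
    (f : X → ℂ) (hinv : ∀ (g : Γ) (x : X), f (g • x) = f x) (hint : ∀ x, ∃ k : ℤ, f x = k) :
    ∃ k : ℤ, ∑ x : X,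
      (Nat.card (MulAction.stabilizer Γ x) : ℂ) / (Nat.card Γ : ℂ) * f x = k := by
  classical
  have hw : ∀ x : X, (Nat.card (MulAction.stabilizer Γ x) : ℂ) / (Nat.card Γ : ℂ) =
      (Nat.card (MulAction.orbit Γ x) : ℂ)⁻¹ := by
    intro x
    have h1 : Nat.card (MulAction.orbit Γ x) = Nat.card (Γ ⧸ MulAction.stabilizer Γ x) :=
      Nat.card_congr (MulAction.orbitEquivQuotientStabilizer Γ x)
    have h2 := Subgroup.card_eq_card_quotient_mul_card_subgroup (MulAction.stabilizer Γ x)
    rw [← h1] at h2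
    have h3 : (Nat.card (MulAction.stabilizer Γ x) : ℂ) ≠ 0 := by
      exact_mod_cast Nat.card_pos.ne'
    have h4 : (Nat.card (MulAction.orbit Γ x) : ℂ) ≠ 0 := by
      have : Nonempty (MulAction.orbit Γ x) := ⟨⟨x, MulAction.mem_orbit_self x⟩⟩
      exact_mod_cast Nat.card_pos.ne'
    rw [h2]
    push_cast
    field_simp
  haveI : Fintype (MulAction.orbitRel.Quotient Γ X) := Fintype.ofFinite _
  let q : X → MulAction.orbitRel.Quotient Γ X := Quotient.mk (MulAction.orbitRel Γ X)
  rw [← Finset.sum_fiberwise Finset.univ q]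
  have key : ∀ ω : MulAction.orbitRel.Quotient Γ X, ∃ k : ℤ,
      ∑ x ∈ Finset.univ.filter (fun x => q x = ω),
        (Nat.card (MulAction.stabilizer Γ x) : ℂ) / (Nat.card Γ : ℂ) * f x = k := by
    intro ω
    obtain ⟨t, rfl⟩ := Quotient.exists_rep ω
    have hmem : ∀ x : X, x ∈ Finset.univ.filter (fun x => q x = Quotient.mk _ t) ↔
        x ∈ MulAction.orbit Γ t := by
      intro x
      rw [Finset.mem_filter]
      simp only [Finset.mem_univ, true_and]
      show Quotient.mk (MulAction.orbitRel Γ X) x = Quotient.mk _ t ↔ _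
      rw [Quotient.eq]
      exact MulAction.orbitRel_apply
    have hsum : ∑ x ∈ Finset.univ.filter (fun x => q x = Quotient.mk _ t),
        (Nat.card (MulAction.stabilizer Γ x) : ℂ) / (Nat.card Γ : ℂ) * f x =
        ∑ x ∈ Finset.univ.filter (fun x => q x = Quotient.mk _ t),
          (Nat.card (MulAction.orbit Γ t) : ℂ)⁻¹ * f t := by
      apply Finset.sum_congr rfl
      intro x hx
      have hx' := (hmem x).mp hx
      obtain ⟨g, rfl⟩ := MulAction.mem_orbit_iff.mp hx'
      rw [hw, hinv, MulAction.orbit_eq_iff.mpr hx']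
    rw [hsum, Finset.sum_const]
    have hc : (Finset.univ.filter (fun x => q x = Quotient.mk _ t)).card =
        Nat.card (MulAction.orbit Γ t) := (Nat.subtype_card _ hmem).symm
    have h4 : (Nat.card (MulAction.orbit Γ t) : ℂ) ≠ 0 := by
      have : Nonempty (MulAction.orbit Γ t) := ⟨⟨t, MulAction.mem_orbit_self t⟩⟩
      exact_mod_cast Nat.card_pos.ne'
    obtain ⟨k, hk⟩ := hint t
    refine ⟨k, ?_⟩
    rw [hc, nsmul_eq_mul, ← mul_assoc, mul_inv_cancel₀ h4, one_mul, hk]
  choose k hk using key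
  refine ⟨∑ ω, k ω, ?_⟩
  push_cast
  exact Finset.sum_congr rfl (fun ω _ => hk ω)

end Cfsg.Agent.Lib.Helper3.OrbitInt
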