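import Mathlib
import Cfsg.Prelude.Def_OddOrderChar
import Cfsg.Agent.Lib.Helper25.Dade
import Cfsg.Agent.Lib.Helper26.VChar
import Cfsg.Agent.Lib.Helper80.CharKer
import Cfsg.Agent.Lib.Helper80.CharOps
import Cfsg.Agent.Lib.Helper3.CharValues
import Cfsg.Agent.Lib.Helper3.CopConj
import Cfsg.Agent.Lib.Helper3.AvgChar
import Cfsg.Agent.Lib.Helper3.OrbitInt
import Cfsg.Agent.S1498
import Cfsg.Agent.S1500

set_option autoImplicit false

/-!
Dade's theorem: under the Dade hypothesis the Dade map sends generalized characters of `L`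
vanishing off `A` to generalized characters of `G`.  The proof is the inner-product form of
Dade's formula: for a character `χ` of `G`,
`⟨α^τ, χ⟩ = ∑_B (-1)^(|B|+1) |N_L(B)|/|L| ⟨α, χ_B⟩_{N_L(B)}`, the sum over the nonempty subsets
`B` of `A`, where `χ_B` is the character of `N_L(B)` on the fixed points of `H(B) = ⋂ H(b)`.
-/

namespace Cfsg.Agent.Lib.Helper3.DadeVirt

open Cfsg

universe u

section defs

variable {G : Type u} [Group G]

/-- The intersection of the subgroups `H b` for `b ∈ B`. -/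
def HB (H : G → Subgroup G) (B : Finset G) : Subgroup G := ⨅ b ∈ B, H b

theorem mem_HB {H : G → Subgroup G} {B : Finset G} {h : G} :
    h ∈ HB H B ↔ ∀ b ∈ B, h ∈ H b := by
  simp [HB, Subgroup.mem_iInf]

open Classical in
/-- Conjugate of a finite set. -/
noncomputable def conjF (x : G) (B : Finset G) : Finset G := B.image (fun g => x * g * x⁻¹)

open Classical in
theorem mem_conjF {x g : G} {B : Finset G} : g ∈ conjF x B ↔ x⁻¹ * g * x ∈ B := by
  unfold conjF
  rw [Finset.mem_image]
  constructor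
  · rintro ⟨b, hb, rfl⟩
    have : x⁻¹ * (x * b * x⁻¹) * x = b := by group
    rw [this]; exact hb
  · intro h
    exact ⟨_, h, by group⟩

theorem conj_mem_conjF {x b : G} {B : Finset G} (hb : b ∈ B) : x * b * x⁻¹ ∈ conjF x B := by
  rw [mem_conjF]
  have : x⁻¹ * (x * b * x⁻¹) * x = b := by group
  rw [this]; exact hb

theorem conjF_one (B : Finset G) : conjF 1 B = B := by
  ext g; simp [mem_conjF]

theorem conjF_mul (x y : G) (B : Finset G) : conjF (x * y) B = conjF x (conjF y B) := by
  ext g
  simp only [mem_conjF]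
  have : (x * y)⁻¹ * g * (x * y) = y⁻¹ * (x⁻¹ * g * x) * y := by group
  rw [this]

open Classical in
theorem card_conjF (x : G) (B : Finset G) : (conjF x B).card = B.card := by
  unfold conjF
  apply Finset.card_image_of_injective
  intro a b h
  simpa using h

/-- The conjugation action of a subgroup on finite subsets, as a structure. -/
@[reducible] noncomputable def finsetAction (L : Subgroup G) : MulAction L (Finset G) where
  smul x B := conjF (x : G) B
  one_smul B := conjF_one B
  mul_smul x y B := conjF_mul (x : G) (y : G) B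

/-- Stabiliser of a finite subset under conjugation by `L`. -/
noncomputable def NB (L : Subgroup G) (B : Finset G) : Subgroup L :=
  @MulAction.stabilizer L (Finset G) _ (finsetAction L) B

theorem mem_NB {L : Subgroup G} {B : Finset G} {x : L} :
    x ∈ NB L B ↔ conjF (x : G) B = B := Iff.rfl

open Classical in
theorem conjF_insert_self (a : G) (B : Finset G) :
    conjF a (insert a B) = insert a (conjF a B) := by
  ext g
  simp only [mem_conjF, Finset.mem_insert]
  constructor
  · rintro (h | h)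
    · left
      have : g = a * (a⁻¹ * g * a) * a⁻¹ := by group
      rw [this, h]; group
    · right; exact h
  · rintro (h | h)
    · left; rw [h]; group
    · right; exact h

open Classical in
theorem conjF_insert_iff {a : G} {B : Finset G} (ha : a ∉ B) :
    conjF a (insert a B) = insert a B ↔ conjF a B = B := by
  rw [conjF_insert_self]
  constructor
  · intro h
    have h1 : a ∉ conjF a B := by
      rw [mem_conjF]
      have : a⁻¹ * a * a = a := by group
      rw [this]; exact ha
    have h2 := congrArg (fun S => S.erase a) h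
    simpa [Finset.erase_insert h1, Finset.erase_insert ha] using h2
  · intro h; rw [h]

end defs

section group

variable {G : Type u} [Group G] [Finite G] {A : Set G} {L : Subgroup G} {H : G → Subgroup G}

omit [Finite G] in
/-- Elements of `C_G(a)` of order prime to `|C_L(a)|` lie in `H a`. -/
theorem mem_H_of_coprime (hD : DadeHypothesis A L H) {a g : G} (ha : a ∈ A)
    (hg : g ∈ Subgroup.centralizer ({a} : Set G))
    (hcop : (orderOf g).Coprime (Nat.card ↥(L ⊓ Subgroup.centralizer ({a} : Set G)))) :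
    g ∈ H a := by
  set M : Subgroup G := L ⊓ Subgroup.centralizer ({a} : Set G) with hM
  have hMn : M ≤ Subgroup.normalizer (H a : Set G) := by
    intro c hc
    have hc' : c ∈ Subgroup.centralizer ({a} : Set G) := (Subgroup.mem_inf.mp hc).2
    rw [Subgroup.mem_normalizer_iff]
    intro n
    constructor
    · intro hn
      exact hD.conj_mem_H a ha c hc' n hn
    · intro hn
      have := hD.conj_mem_H a ha c⁻¹ (inv_mem hc') _ hn
      have e : c⁻¹ * (c * n * c⁻¹) * c⁻¹⁻¹ = n := by group
      rw [e] at this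
      exact this
  rw [← hD.sup_eq a ha] at hg
  have hk' : g ∈ ((H a ⊔ M : Subgroup G) : Set G) := hg
  rw [Subgroup.coe_mul_of_right_le_normalizer_left (H a) M hMn] at hk'
  obtain ⟨h, hh, l, hl, hkl⟩ := hk'
  have hh' : h ∈ H a := hh
  have hl' : l ∈ M := hl
  have hpow : ∀ m : ℕ, ∃ hm ∈ H a, (h * l) ^ m = hm * l ^ m := by
    intro m
    induction m with
    | zero => exact ⟨1, one_mem _, by simp⟩
    | succ m ih =>
      obtain ⟨hm, hhm, e⟩ := ih
      refine ⟨hm * (l ^ m * h * (l ^ m)⁻¹), mul_mem hhm ?_, ?_⟩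
      · exact (Subgroup.mem_normalizer_iff.mp (hMn (pow_mem hl' m)) h).mp hh'
      · rw [pow_succ, e, pow_succ]; group
  have hkl' : h * l = g := hkl
  obtain ⟨hm, hhm, e⟩ := hpow (orderOf g)
  rw [hkl', pow_orderOf_eq_one] at e
  have hlm : l ^ orderOf g ∈ H a ⊓ M := by
    refine Subgroup.mem_inf.mpr ⟨?_, pow_mem hl' _⟩
    have : l ^ orderOf g = hm⁻¹ := eq_inv_of_mul_eq_one_right e.symm
    rw [this]; exact inv_mem hhm
  rw [hD.inf_eq_bot a ha, Subgroup.mem_bot] at hlm
  have h1 : orderOf l ∣ orderOf g := orderOf_dvd_of_pow_eq_one hlm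
  have h2 : orderOf l ∣ Nat.card ↥M := Subgroup.orderOf_dvd_natCard _ hl'
  have h3 : orderOf l = 1 := Nat.eq_one_of_dvd_coprimes hcop h1 h2
  rw [orderOf_eq_one_iff] at h3
  rw [← hkl', h3, mul_one]
  exact hh'

omit [Finite G] in
theorem mem_inf_centralizer_self (hD : DadeHypothesis A L H) {a : G} (ha : a ∈ A) :
    a ∈ L ⊓ Subgroup.centralizer ({a} : Set G) := by
  refine Subgroup.mem_inf.mpr ⟨hD.subset ha, ?_⟩
  rw [Subgroup.mem_centralizer_iff]
  intro h hh
  rw [Set.mem_singleton_iff] at hh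
  rw [hh]

/-- The order of `a ∈ A` is prime to `|H(B)|` for nonempty `B ⊆ A`. -/
theorem coprime_orderOf_card_HB (hD : DadeHypothesis A L H) {a : G} (ha : a ∈ A)
    {B : Finset G} (hB : B.Nonempty) (hBA : ∀ b ∈ B, b ∈ A) :
    (orderOf a).Coprime (Nat.card (HB H B)) := by
  obtain ⟨b, hb⟩ := hB
  have h1 : Nat.card (HB H B) ∣ Nat.card (H b) :=
    Subgroup.card_dvd_of_le (fun h hh => mem_HB.mp hh b hb)
  have h2 : orderOf a ∣ Nat.card ↥(L ⊓ Subgroup.centralizer ({a} : Set G)) :=
    Subgroup.orderOf_dvd_natCard _ (mem_inf_centralizer_self hD ha)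
  exact (Nat.Coprime.of_dvd h1 h2 (hD.coprime b (hBA b hb) a ha)).symm

open Classical in
/-- `C_{H(B)}(a) = H(B ∪ {a})`. -/
theorem HB_inf_centralizer (hD : DadeHypothesis A L H) {a : G} (ha : a ∈ A)
    {B : Finset G} (hB : B.Nonempty) (hBA : ∀ b ∈ B, b ∈ A) :
    HB H B ⊓ Subgroup.centralizer ({a} : Set G) = HB H (insert a B) := by
  ext h
  rw [Subgroup.mem_inf, mem_HB, mem_HB]
  constructor
  · rintro ⟨h1, h2⟩
    intro b hb
    rcases Finset.mem_insert.mp hb with rfl | hb'
    · apply mem_H_of_coprime hD ha h2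
      obtain ⟨b₀, hb₀⟩ := hB
      have d1 : orderOf h ∣ Nat.card (H b₀) := Subgroup.orderOf_dvd_natCard _ (h1 b₀ hb₀)
      exact Nat.Coprime.of_dvd_left d1 (hD.coprime b₀ (hBA b₀ hb₀) _ ha)
    · exact h1 b hb'
  · intro h1
    exact ⟨fun b hb => h1 b (Finset.mem_insert_of_mem hb),
      hD.le_centralizer a ha (h1 a (Finset.mem_insert_self a B))⟩

/-- `H(x B x⁻¹) = x H(B) x⁻¹` for `x ∈ L`. -/
theorem mem_HB_conjF (hD : DadeHypothesis A L H) {x : G} (hx : x ∈ L) {B : Finset G}
    (hBA : ∀ b ∈ B, b ∈ A) (h : G) : h ∈ HB H (conjF x B) ↔ x⁻¹ * h * x ∈ HB H B := by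
  rw [mem_HB, mem_HB]
  constructor
  · intro hh b hb
    have h1 := hh (x * b * x⁻¹) (conj_mem_conjF hb)
    have h2 := Cfsg.Agent.S1498.conj_le A L H hD (x * b * x⁻¹) (hD.conj_mem x hx b (hBA b hb))
      x⁻¹ (inv_mem hx) h h1
    have e : x⁻¹ * (x * b * x⁻¹) * x⁻¹⁻¹ = b := by group
    rw [e] at h2
    simpa using h2
  · intro hh b hb
    rw [mem_conjF] at hb
    have h1 := hh _ hb
    have hbA : x⁻¹ * b * x ∈ A := hBA _ hb
    have h2 := Cfsg.Agent.S1498.conj_le A L H hD (x⁻¹ * b * x) hbA x hx _ h1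
    have e1 : x * (x⁻¹ * b * x) * x⁻¹ = b := by group
    have e2 : x * (x⁻¹ * h * x) * x⁻¹ = h := by group
    rw [e1, e2] at h2
    exact h2

omit [Finite G] in
theorem conjF_subset (hD : DadeHypothesis A L H) {x : G} (hx : x ∈ L) {B : Finset G}
    (hBA : ∀ b ∈ B, b ∈ A) : ∀ b ∈ conjF x B, b ∈ A := by
  intro b hb
  rw [mem_conjF] at hb
  have := hD.conj_mem x hx _ (hBA _ hb)
  have e : x * (x⁻¹ * b * x) * x⁻¹ = b := by group
  rwa [e] at this

/-- `N_L(B)` normalises `H(B)`. -/
theorem NB_le_normalizer (hD : DadeHypothesis A L H) {B : Finset G} (hBA : ∀ b ∈ B, b ∈ A)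
    {x : L} (hx : x ∈ NB L B) : (x : G) ∈ Subgroup.normalizer (HB H B : Set G) := by
  rw [Subgroup.mem_normalizer_iff]
  intro h
  have h1 := mem_HB_conjF hD x.2 hBA ((x : G) * h * (x : G)⁻¹)
  rw [mem_NB.mp hx] at h1
  have e : (x : G)⁻¹ * ((x : G) * h * (x : G)⁻¹) * (x : G) = h := by group
  rw [e] at h1
  exact h1.symm

end group

section sums

variable {G : Type u} [Group G] [Fintype G] {A : Set G} {L : Subgroup G} [Fintype L]
  {H : G → Subgroup G}

open Classical in
/-- The averaged function `y ↦ |H(B)|⁻¹ ∑_{h ∈ H(B)} χ (h y)`. -/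
noncomputable def avgB (H : G → Subgroup G) (χ : G → ℂ) (B : Finset G) (y : G) : ℂ :=
  (Nat.card (HB H B) : ℂ)⁻¹ * ∑ h : G, if h ∈ HB H B then χ (h * y) else 0

open Classical in
omit [Fintype L] in
theorem avgB_insert (hD : DadeHypothesis A L H) {χ : G → ℂ} (hχ : IsClassFunction G χ)
    {a : L} (ha : (a : G) ∈ A) {B : Finset G} (hB : B.Nonempty) (hBA : ∀ b ∈ B, b ∈ A)
    (haN : a ∈ NB L B) : avgB H χ (insert (a : G) B) a = avgB H χ B a := by
  unfold avgB
  have hnorm := NB_le_normalizer hD hBA haN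
  have hcop := coprime_orderOf_card_HB hD ha hB hBA
  have key := Cfsg.Agent.Lib.Helper3.CopConj.sum_coset_eq (HB H B) (a : G) hnorm hcop χ hχ
  rw [HB_inf_centralizer hD ha hB hBA] at key
  have h1 : (Nat.card (HB H B) : ℂ) ≠ 0 := by exact_mod_cast Nat.card_pos.ne'
  have h2 : (Nat.card (HB H (insert (a : G) B)) : ℂ) ≠ 0 := by exact_mod_cast Nat.card_pos.ne'
  field_simp
  linear_combination (-1 : ℂ) * key

open Classical in
/-- The nonempty subsets of `A`. -/
noncomputable def Sset (A : Set G) : Finset (Finset G) :=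
  Finset.univ.filter (fun B : Finset G => B.Nonempty ∧ ∀ b ∈ B, b ∈ A)

omit [Fintype L] in
theorem mem_Sset {B : Finset G} : B ∈ Sset A ↔ B.Nonempty ∧ ∀ b ∈ B, b ∈ A := by
  simp [Sset]

open Classical in
/-- The term of `B` in Dade's formula. -/
noncomputable def term (L : Subgroup G) (H : G → Subgroup G) (χ : G → ℂ) (x : L)
    (B : Finset G) : ℂ :=
  if x ∈ NB L B then (-1 : ℂ) ^ (B.card + 1) * avgB H χ B x else 0

open Classical in
omit [Fintype L] in
theorem term_add_insert (hD : DadeHypothesis A L H) {χ : G → ℂ} (hχ : IsClassFunction G χ)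
    {a : L} (ha : (a : G) ∈ A) {B : Finset G} (hB : B ∈ Sset A) (haB : (a : G) ∉ B) :
    term L H χ a B + term L H χ a (insert (a : G) B) = 0 := by
  obtain ⟨hBne, hBA⟩ := mem_Sset.mp hB
  unfold term
  by_cases haN : a ∈ NB L B
  · have haN' : a ∈ NB L (insert (a : G) B) :=
      mem_NB.mpr ((conjF_insert_iff haB).mpr (mem_NB.mp haN))
    rw [if_pos haN, if_pos haN', Finset.card_insert_of_notMem haB,
      avgB_insert hD hχ ha hBne hBA haN]
    ring
  · have haN' : a ∉ NB L (insert (a : G) B) := fun h =>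
      haN (mem_NB.mpr ((conjF_insert_iff haB).mp (mem_NB.mp h)))
    rw [if_neg haN, if_neg haN', add_zero]

open Classical in
omit [Fintype L] in
/-- The alternating sum over the subsets normalised by `a` collapses to the term of `{a}`. -/
theorem sum_term (hD : DadeHypothesis A L H) {χ : G → ℂ} (hχ : IsClassFunction G χ)
    {a : L} (ha : (a : G) ∈ A) :
    ∑ B ∈ Sset A, term L H χ a B = avgB H χ {(a : G)} a := by
  have hmem : ({(a : G)} : Finset G) ∈ Sset A :=
    mem_Sset.mpr ⟨Finset.singleton_nonempty _, by simpa using ha⟩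
  rw [← Finset.add_sum_erase _ _ hmem]
  have h0 : ∑ B ∈ (Sset A).erase {(a : G)}, term L H χ a B = 0 := by
    apply Finset.sum_involution
      (fun B _ => if (a : G) ∈ B then B.erase (a : G) else insert (a : G) B)
    · intro B hB
      obtain ⟨hne, hBS⟩ := Finset.mem_erase.mp hB
      obtain ⟨hBne, hBA⟩ := mem_Sset.mp hBS
      by_cases haB : (a : G) ∈ B
      · simp only [if_pos haB]
        have hB₀ : B.erase (a : G) ∈ Sset A := by
          refine mem_Sset.mpr ⟨?_, fun b hb => hBA b (Finset.mem_of_mem_erase hb)⟩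
          by_contra hempty
          rw [Finset.not_nonempty_iff_eq_empty, Finset.erase_eq_empty_iff] at hempty
          rcases hempty with h | h
          · rw [h] at haB; exact absurd haB (Finset.notMem_empty _)
          · exact hne h
        have := term_add_insert hD hχ ha hB₀ (Finset.notMem_erase _ _)
        rw [Finset.insert_erase haB] at this
        rw [add_comm]; exact this
      · simp only [if_neg haB]
        exact term_add_insert hD hχ ha hBS haB
    · intro B hB _
      by_cases haB : (a : G) ∈ B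
      · simp only [if_pos haB]
        intro h
        have := Finset.notMem_erase (a : G) B
        rw [h] at this; exact this haB
      · simp only [if_neg haB]
        intro h
        exact haB (h ▸ Finset.mem_insert_self _ _)
    · intro B hB
      by_cases haB : (a : G) ∈ B
      · simp only [if_pos haB]
        rw [if_neg (Finset.notMem_erase _ _)]
        exact Finset.insert_erase haB
      · simp only [if_neg haB]
        rw [if_pos (Finset.mem_insert_self _ _)]
        exact Finset.erase_insert haB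
    · intro B hB
      obtain ⟨hne, hBS⟩ := Finset.mem_erase.mp hB
      obtain ⟨hBne, hBA⟩ := mem_Sset.mp hBS
      by_cases haB : (a : G) ∈ B
      · simp only [if_pos haB]
        refine Finset.mem_erase.mpr ⟨?_, mem_Sset.mpr ⟨?_, fun b hb => hBA b (Finset.mem_of_mem_erase hb)⟩⟩
        · intro h
          have := Finset.notMem_erase (a : G) B
          rw [h] at this; exact this (Finset.mem_singleton_self _)
        · by_contra hempty
          rw [Finset.not_nonempty_iff_eq_empty, Finset.erase_eq_empty_iff] at hempty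
          rcases hempty with h | h
          · rw [h] at haB; exact absurd haB (Finset.notMem_empty _)
          · exact hne h
      · simp only [if_neg haB]
        refine Finset.mem_erase.mpr ⟨?_, mem_Sset.mpr ⟨Finset.insert_nonempty _ _, ?_⟩⟩
        · intro h
          obtain ⟨b, hb⟩ := hBne
          have hb' : b ∈ insert (a : G) B := Finset.mem_insert_of_mem hb
          rw [h, Finset.mem_singleton] at hb'
          rw [hb'] at hb; exact haB hb
        · intro b hb
          rcases Finset.mem_insert.mp hb with rfl | hb'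
          · exact ha
          · exact hBA b hb'
  rw [h0, add_zero]
  unfold term
  have haN : a ∈ NB L {(a : G)} := by
    rw [mem_NB]
    ext g
    rw [mem_conjF, Finset.mem_singleton, Finset.mem_singleton]
    constructor
    · intro h
      have : g = (a : G) * ((a : G)⁻¹ * g * (a : G)) * (a : G)⁻¹ := by group
      rw [this, h]; group
    · intro h; rw [h]; group
  rw [if_pos haN, Finset.card_singleton]
  norm_num

end sums

section main

variable {G : Type u} [Group G] [Fintype G] {A : Set G} {L : Subgroup G} [Fintype L]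
  {H : G → Subgroup G}

/-- The function on `L` paired with `α` in Dade's formula. -/
noncomputable def psi (A : Set G) (L : Subgroup G) (H : G → Subgroup G) (χ : G → ℂ)
    (x : L) : ℂ :=
  ∑ B ∈ Sset A, term L H χ x B

open Classical in
omit [Fintype L] in
theorem psi_apply (hD : DadeHypothesis A L H) {χ : G → ℂ} (hχ : IsClassFunction G χ)
    (a : L) (ha : (a : G) ∈ A) :
    psi A L H χ a = (Nat.card (H a) : ℂ)⁻¹ * ∑ᶠ u ∈ (H (a : G) : Set G), χ (a * u) := by
  unfold psi
  rw [sum_term hD hχ ha]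
  unfold avgB
  have hHB : HB H {(a : G)} = H a := by
    ext h; simp [mem_HB]
  rw [hHB]
  congr 1
  have hfs : ∑ᶠ u ∈ (H (a : G) : Set G), χ (a * u) =
      ∑ u : G, if u ∈ H (a : G) then χ (a * u) else 0 := by
    rw [finsum_mem_def, finsum_eq_sum_of_fintype]
    apply Finset.sum_congr rfl
    intro u _
    simp [Set.indicator_apply]
  rw [hfs]
  apply Finset.sum_congr rfl
  intro u _
  by_cases hu : u ∈ H (a : G)
  · rw [if_pos hu, if_pos hu, (Cfsg.Agent.Lib.Helper25.dade_commute hD ha hu).eq]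
  · rw [if_neg hu, if_neg hu]

open Classical in
/-- The pairing over `N_L(B)` (unnormalised). -/
noncomputable def TB (L : Subgroup G) [Fintype L] (H : G → Subgroup G) (α : L → ℂ) (χ : G → ℂ)
    (B : Finset G) : ℂ :=
  ∑ x : L, if x ∈ NB L B then α x * (starRingEnd ℂ) (avgB H χ B x) else 0

open Classical in
theorem classInner_psi (α : L → ℂ) (χ : G → ℂ) :
    classInner α (psi A L H χ) =
      (Nat.card L : ℂ)⁻¹ * ∑ B ∈ Sset A, (-1 : ℂ) ^ (B.card + 1) * TB L H α χ B := by
  unfold classInner psi TB term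
  congr 1
  simp_rw [map_sum, Finset.mul_sum]
  rw [Finset.sum_comm]
  apply Finset.sum_congr rfl
  intro B _
  apply Finset.sum_congr rfl
  intro x _
  by_cases hx : x ∈ NB L B
  · rw [if_pos hx, if_pos hx, map_mul, map_pow, map_neg, map_one]; ring
  · rw [if_neg hx, if_neg hx, map_zero, mul_zero, mul_zero]

open Classical in
/-- Integrality of the pairing over `N_L(B)`. -/
theorem TB_int (hD : DadeHypothesis A L H) {α : L → ℂ} (hα : IsGeneralizedCharacter L α)
    {χ : G → ℂ} (hχ : IsCharacter G χ) {B : Finset G} (hBA : ∀ b ∈ B, b ∈ A) :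
    ∃ k : ℤ, TB L H α χ B = (Nat.card (NB L B) : ℂ) * k := by
  have hfin : Fintype (NB L B) := Fintype.ofFinite _
  have hα' : IsGeneralizedCharacter (NB L B) (fun y : NB L B => α (y : L)) := by
    obtain ⟨χ₁, χ₂, h₁, h₂, rfl⟩ := hα
    exact ⟨fun y => χ₁ y, fun y => χ₂ y, Cfsg.Agent.Lib.Helper80.isCharacter_restrict (NB L B) h₁,
      Cfsg.Agent.Lib.Helper80.isCharacter_restrict (NB L B) h₂, rfl⟩
  let φ : NB L B →* Subgroup.normalizer (HB H B : Set G) :=
    (L.subtype.comp (NB L B).subtype).codRestrict _ (fun y => NB_le_normalizer hD hBA y.2)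
  have hχ' : IsCharacter (NB L B) (fun y : NB L B => avgB H χ B ((y : L) : G)) :=
    Cfsg.Agent.Lib.Helper80.isCharacter_comp φ
      (Cfsg.Agent.Lib.Helper3.AvgChar.isCharacter_avg (HB H B)
        (Subgroup.normalizer (HB H B : Set G)) le_rfl hχ)
  have hfin2 : Fintype (IrrCharacter (NB L B)) := Fintype.ofFinite _
  obtain ⟨k, hk⟩ := Cfsg.Agent.Lib.Helper26.classInner_gen_int hα'
    (Cfsg.Agent.Lib.Helper26.isGen_of_isCharacter hχ')
  refine ⟨k, ?_⟩
  rw [← hk]
  unfold classInner TB
  have hne : (Nat.card (NB L B) : ℂ) ≠ 0 := by exact_mod_cast Nat.card_pos.ne'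
  rw [← mul_assoc, mul_inv_cancel₀ hne, one_mul, ← Finset.sum_filter]
  exact Finset.sum_subtype (Finset.univ.filter (fun x : L => x ∈ NB L B)) (by simp)
    (fun x => α x * (starRingEnd ℂ) (avgB H χ B x))

omit [Fintype G] [Fintype L] in
theorem mem_NB_conj (x z : L) (B : Finset G) :
    x * z * x⁻¹ ∈ NB L (conjF (x : G) B) ↔ z ∈ NB L B := by
  rw [mem_NB, mem_NB]
  have e : conjF ((x * z * x⁻¹ : L) : G) (conjF (x : G) B) = conjF (x : G) (conjF (z : G) B) := by
    rw [← conjF_mul, ← conjF_mul]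
    congr 1
    push_cast
    group
  rw [e]
  constructor
  · intro h
    have h2 := congrArg (conjF ((x : G)⁻¹)) h
    have e1 : ∀ C : Finset G, conjF ((x : G)⁻¹) (conjF (x : G) C) = C := fun C => by
      rw [← conjF_mul, inv_mul_cancel, conjF_one]
    rwa [e1, e1] at h2
  · intro h; rw [h]

omit [Fintype G] [Fintype L] in
theorem card_NB_conj [Finite G] (x : L) (B : Finset G) :
    Nat.card (NB L (conjF (x : G) B)) = Nat.card (NB L B) := by
  symm
  exact Nat.card_congr (Equiv.subtypeEquiv (MulAut.conj x).toEquiv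
    (fun z => (mem_NB_conj x z B).symm))

omit [Fintype G] [Fintype L] in
theorem card_HB_conj [Finite G] (hD : DadeHypothesis A L H) (x : L) {B : Finset G}
    (hBA : ∀ b ∈ B, b ∈ A) : Nat.card (HB H (conjF (x : G) B)) = Nat.card (HB H B) := by
  exact Nat.card_congr (Equiv.subtypeEquiv (MulAut.conj (x : G)).symm.toEquiv
    (fun h => by simpa using mem_HB_conjF hD x.2 hBA h))

open Classical in
omit [Fintype L] in
theorem avgB_conj (hD : DadeHypothesis A L H) {χ : G → ℂ} (hχ : IsClassFunction G χ) (x : L)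
    {B : Finset G} (hBA : ∀ b ∈ B, b ∈ A) (z : G) :
    avgB H χ (conjF (x : G) B) ((x : G) * z * (x : G)⁻¹) = avgB H χ B z := by
  unfold avgB
  rw [card_HB_conj hD x hBA]
  congr 1
  symm
  apply Fintype.sum_equiv (MulAut.conj (x : G)).toEquiv
  intro h
  show _ = if (x : G) * h * (x : G)⁻¹ ∈ HB H (conjF (x : G) B) then
    χ ((x : G) * h * (x : G)⁻¹ * ((x : G) * z * (x : G)⁻¹)) else 0
  have hiff : (x : G) * h * (x : G)⁻¹ ∈ HB H (conjF (x : G) B) ↔ h ∈ HB H B := by
    rw [mem_HB_conjF hD x.2 hBA]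
    have e : (x : G)⁻¹ * ((x : G) * h * (x : G)⁻¹) * (x : G) = h := by group
    rw [e]
  have e2 : (x : G) * h * (x : G)⁻¹ * ((x : G) * z * (x : G)⁻¹) =
      (x : G) * (h * z) * (x : G)⁻¹ := by group
  rw [e2, hχ (h * z) (x : G)]
  exact if_congr hiff.symm rfl rfl

open Classical in
theorem TB_conj (hD : DadeHypothesis A L H) {α : L → ℂ} (hα : IsClassFunction L α)
    {χ : G → ℂ} (hχ : IsClassFunction G χ) (x : L) {B : Finset G} (hBA : ∀ b ∈ B, b ∈ A) :
    TB L H α χ (conjF (x : G) B) = TB L H α χ B := by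
  unfold TB
  symm
  apply Fintype.sum_equiv (MulAut.conj x).toEquiv
  intro z
  show _ = if x * z * x⁻¹ ∈ NB L (conjF (x : G) B) then
    α (x * z * x⁻¹) * (starRingEnd ℂ) (avgB H χ (conjF (x : G) B) ((x * z * x⁻¹ : L) : G)) else 0
  have e : ((x * z * x⁻¹ : L) : G) = (x : G) * (z : G) * (x : G)⁻¹ := by push_cast; rfl
  rw [e, avgB_conj hD hχ x hBA, hα z x]
  exact if_congr (mem_NB_conj x z B).symm rfl rfl

omit [Fintype L] in
theorem conjF_mem_Sset (hD : DadeHypothesis A L H) (x : L) (B : Finset G) :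
    conjF (x : G) B ∈ Sset A ↔ B ∈ Sset A := by
  have key : ∀ (y : L) (C : Finset G), C ∈ Sset A → conjF (y : G) C ∈ Sset A := by
    intro y C hC
    obtain ⟨hne, hCA⟩ := mem_Sset.mp hC
    refine mem_Sset.mpr ⟨?_, conjF_subset hD y.2 hCA⟩
    rw [← Finset.card_pos, card_conjF]
    exact Finset.card_pos.mpr hne
  constructor
  · intro h
    have h2 := key x⁻¹ _ h
    have e : conjF ((x⁻¹ : L) : G) (conjF (x : G) B) = B := by
      rw [← conjF_mul]
      push_cast
      rw [inv_mul_cancel, conjF_one]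
    rwa [e] at h2
  · exact key x B

open Classical in
/-- Inner products of the Dade image of a generalized character with characters of `G` are
integers. -/
theorem classInner_dade_int (hD : DadeHypothesis A L H) (α : L → ℂ)
    (hα : IsGeneralizedCharacter L α) (hαA : ∀ x : L, (x : G) ∉ A → α x = 0)
    (χ : G → ℂ) (hχ : IsCharacter G χ) :
    ∃ k : ℤ, classInner (dadeIsometry A L H α) χ = k := by
  have hαc : IsClassFunction L α := by
    obtain ⟨χ₁, χ₂, h₁, h₂, rfl⟩ := hα
    intro g h
    show χ₁ (h * g * h⁻¹) - χ₂ (h * g * h⁻¹) = χ₁ g - χ₂ g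
    rw [Cfsg.Agent.Lib.Helper26.isClassFunction_of_isCharacter h₁ g h,
      Cfsg.Agent.Lib.Helper26.isClassFunction_of_isCharacter h₂ g h]
  have hχc : IsClassFunction G χ := Cfsg.Agent.Lib.Helper26.isClassFunction_of_isCharacter hχ
  rw [Cfsg.Agent.S1500.part_two A L H hD α hαc hαA χ (psi A L H χ) hχc
    (fun a ha => psi_apply hD hχc a ha), classInner_psi]
  set f : Finset G → ℂ := fun B =>
    if B ∈ Sset A then (-1 : ℂ) ^ (B.card + 1) * TB L H α χ B / (Nat.card (NB L B) : ℂ) else 0
    with hf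
  have hinv : ∀ (x : L) (B : Finset G), f (conjF (x : G) B) = f B := by
    intro x B
    simp only [hf]
    by_cases hB : B ∈ Sset A
    · rw [if_pos hB, if_pos ((conjF_mem_Sset hD x B).mpr hB), card_conjF,
        TB_conj hD hαc hχc x (mem_Sset.mp hB).2, card_NB_conj]
    · rw [if_neg hB, if_neg (fun h => hB ((conjF_mem_Sset hD x B).mp h))]
  have hint : ∀ B : Finset G, ∃ k : ℤ, f B = k := by
    intro B
    simp only [hf]
    by_cases hB : B ∈ Sset A
    · rw [if_pos hB]
      obtain ⟨k, hk⟩ := TB_int hD hα hχ (mem_Sset.mp hB).2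
      have hne : (Nat.card (NB L B) : ℂ) ≠ 0 := by exact_mod_cast Nat.card_pos.ne'
      refine ⟨(-1) ^ (B.card + 1) * k, ?_⟩
      rw [hk]
      push_cast
      field_simp
    · rw [if_neg hB]
      exact ⟨0, by simp⟩
  obtain ⟨k, hk⟩ := @Cfsg.Agent.Lib.Helper3.OrbitInt.orbit_sum_int L (Finset G) _ _ _
    (finsetAction L) f hinv hint
  refine ⟨k, ?_⟩
  rw [← hk, Finset.mul_sum]
  unfold Sset
  rw [Finset.sum_filter]
  apply Finset.sum_congr rfl
  intro B _
  show _ = (Nat.card (NB L B) : ℂ) / (Nat.card L : ℂ) * f B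
  have hne : (Nat.card (NB L B) : ℂ) ≠ 0 := by exact_mod_cast Nat.card_pos.ne'
  have hneL : (Nat.card L : ℂ) ≠ 0 := by exact_mod_cast Nat.card_pos.ne'
  simp only [hf]
  by_cases hB : B ∈ Sset A
  · rw [if_pos hB, if_pos (mem_Sset.mp hB)]
    field_simp
  · rw [if_neg hB, if_neg (fun h => hB (mem_Sset.mpr h)), mul_zero]

/-- **Dade's theorem**: the Dade map sends generalized characters vanishing off `A` to
generalized characters. -/
theorem dade_isGeneralizedCharacter (hD : DadeHypothesis A L H) (α : L → ℂ)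
    (hα : IsGeneralizedCharacter L α) (hαA : ∀ x : L, (x : G) ∉ A → α x = 0) :
    IsGeneralizedCharacter G (dadeIsometry A L H α) := by
  classical
  have hfin : Fintype (IrrCharacter G) := Fintype.ofFinite _
  have hαc : IsClassFunction L α := by
    obtain ⟨χ₁, χ₂, h₁, h₂, rfl⟩ := hα
    intro g h
    show χ₁ (h * g * h⁻¹) - χ₂ (h * g * h⁻¹) = χ₁ g - χ₂ g
    rw [Cfsg.Agent.Lib.Helper26.isClassFunction_of_isCharacter h₁ g h,
      Cfsg.Agent.Lib.Helper26.isClassFunction_of_isCharacter h₂ g h]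
  have hcl := Cfsg.Agent.Lib.Helper25.isClassFunction_dadeIsometry hD α hαc
  rw [Cfsg.Agent.Lib.Helper3.classFunction_expansion' hcl]
  apply Cfsg.Agent.Lib.Helper26.isGen_sum
  intro ψ _
  obtain ⟨k, hk⟩ := classInner_dade_int hD α hα hαA ψ
    (Cfsg.Agent.Lib.Helper26.isCharacter_of_irr ψ.2)
  rw [hk]
  have h1 := Cfsg.Agent.Lib.Helper26.isGen_zsmul (Cfsg.Agent.Lib.Helper26.isGen_of_irr ψ.2) k
  rwa [Cfsg.Agent.Lib.Helper26.zsmul_eq_smul] at h1

end main

end Cfsg.Agent.Lib.Helper3.DadeVirt
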