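import Mathlib
import Cfsg.Prelude.Def_OddOrderChar
import Cfsg.Agent.Lib.Helper3.DadeVirt
import Cfsg.Agent.Lib.Helper82.BLGen

set_option autoImplicit false

/-!
The Dade image of `χ - conj χ` for an irreducible character `χ` of `L` vanishing on the
non-identity elements outside `A` is `μ - conj μ` for an irreducible character `μ` of `G`.
-/

namespace Cfsg.Agent.Lib.Helper3.DadeConj

open Cfsg

universe u

variable {G : Type u} [Group G] {A : Set G} {L : Subgroup G} {H : G → Subgroup G}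

theorem dadeIsometry_conj (α : L → ℂ) :
    dadeIsometry A L H (conjFun α) = conjFun (dadeIsometry A L H α) := by
  funext g
  unfold dadeIsometry conjFun
  by_cases h : ∃ a : ↥L, (a : G) ∈ A ∧ ∃ x : G, ∃ u ∈ H (a : G), x * g * x⁻¹ = (a : G) * u
  · simp only [dif_pos h]
  · simp only [dif_neg h, map_zero]

theorem dadeIsometry_neg (α : L → ℂ) :
    dadeIsometry A L H (-α) = - dadeIsometry A L H α := by
  funext g
  unfold dadeIsometry
  by_cases h : ∃ a : ↥L, (a : G) ∈ A ∧ ∃ x : G, ∃ u ∈ H (a : G), x * g * x⁻¹ = (a : G) * u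
  · simp only [dif_pos h, Pi.neg_apply]
  · simp only [dif_neg h, Pi.neg_apply, neg_zero]

theorem dadeIsometry_zero : dadeIsometry A L H (0 : L → ℂ) = 0 := by
  funext g
  unfold dadeIsometry
  split_ifs <;> rfl

theorem dadeIsometry_one_eq_zero (hD : DadeHypothesis A L H) (α : L → ℂ) :
    dadeIsometry A L H α 1 = 0 := by
  apply Cfsg.Agent.Lib.Helper25.dadeIsometry_eq_zero
  rintro ⟨a, ha, x, u, hu, hx⟩
  have h1 : (a : G) * u = 1 := by rw [← hx]; group
  have h2 : u = (a : G)⁻¹ := eq_inv_of_mul_eq_one_right h1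
  have h3 : (a : G)⁻¹ ∈ H (a : G) ⊓ (L ⊓ Subgroup.centralizer ({(a : G)} : Set G)) :=
    Subgroup.mem_inf.mpr ⟨h2 ▸ hu,
      inv_mem (Cfsg.Agent.Lib.Helper3.DadeVirt.mem_inf_centralizer_self hD ha)⟩
  rw [hD.inf_eq_bot a ha, Subgroup.mem_bot, inv_eq_one] at h3
  exact hD.one_not_mem (h3 ▸ ha)

theorem main [Fintype G] [Fintype L] (hD : DadeHypothesis A L H) (χ : L → ℂ)
    (hχ : IsIrrCharacter L χ) (hsupp : ∀ x : L, x ≠ 1 → (x : G) ∉ A → χ x = 0) :
    ∃ μ : G → ℂ, IsIrrCharacter G μ ∧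
      dadeIsometry A L H (χ - conjFun χ) = μ - conjFun μ := by
  classical
  by_cases hreal : conjFun χ = χ
  · refine ⟨fun _ => 1, Cfsg.Agent.Lib.Helper80.isIrrCharacter_one, ?_⟩
    rw [hreal, sub_self, dadeIsometry_zero]
    funext g
    simp [conjFun]
  · have hχc : IsCharacter L χ := Cfsg.Agent.Lib.Helper26.isCharacter_of_irr hχ
    have hχbar : IsIrrCharacter L (conjFun χ) := Cfsg.Agent.Lib.Helper80.isIrrCharacter_conj hχ
    have hα : IsGeneralizedCharacter L (χ - conjFun χ) :=
      ⟨χ, conjFun χ, hχc, Cfsg.Agent.Lib.Helper26.isCharacter_of_irr hχbar, rfl⟩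
    have hαA : ∀ x : L, (x : G) ∉ A → (χ - conjFun χ) x = 0 := by
      intro x hx
      show χ x - (starRingEnd ℂ) (χ x) = 0
      by_cases hx1 : x = 1
      · rw [hx1]
        obtain ⟨n, hn⟩ := Cfsg.Agent.Lib.Helper26.char_degree hχc
        rw [hn]; simp
      · rw [hsupp x hx1 hx]; simp
    have hαc : IsClassFunction L (χ - conjFun χ) := by
      intro g h
      show χ (h * g * h⁻¹) - (starRingEnd ℂ) (χ (h * g * h⁻¹)) = χ g - (starRingEnd ℂ) (χ g)
      rw [Cfsg.Agent.Lib.Helper26.isClassFunction_of_isCharacter hχc g h]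
    have hgen := Cfsg.Agent.Lib.Helper3.DadeVirt.dade_isGeneralizedCharacter hD _ hα hαA
    obtain ⟨φ₁, φ₂, h₁, h₂, hφ⟩ := hgen
    have hnorm : classInner (φ₁ - φ₂) (φ₁ - φ₂) = 2 := by
      rw [← hφ, (Cfsg.Agent.S1500.result A L H hD _ hαc hαA).1 _ hαc hαA]
      rw [Cfsg.Agent.Lib.Helper26.classInner_sub_left, Cfsg.Agent.Lib.Helper26.classInner_sub_right,
        Cfsg.Agent.Lib.Helper26.classInner_sub_right,
        Cfsg.Agent.Lib.Helper26.classInner_irr_self hχ,
        Cfsg.Agent.Lib.Helper26.classInner_irr_self hχbar,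
        Cfsg.Agent.Lib.Helper26.classInner_irr_ne hχ hχbar (Ne.symm hreal),
        Cfsg.Agent.Lib.Helper26.classInner_irr_ne hχbar hχ hreal]
      norm_num
    have hdeg : φ₁ 1 = φ₂ 1 := by
      have := congrFun hφ 1
      rw [dadeIsometry_one_eq_zero hD] at this
      exact sub_eq_zero.mp this.symm
    obtain ⟨X, X', hne, hXX⟩ := Cfsg.Agent.Lib.Helper82.BL.exists_irr_sub_irr h₁ h₂ hnorm hdeg
    rw [← hφ] at hXX
    have hconj : conjFun (dadeIsometry A L H (χ - conjFun χ)) =
        - dadeIsometry A L H (χ - conjFun χ) := by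
      rw [← dadeIsometry_conj, ← dadeIsometry_neg]
      congr 1
      funext x
      simp [conjFun]
    rw [hXX] at hconj
    have hX'eq : (X' : G → ℂ) = conjFun (X : G → ℂ) := by
      by_contra hcon
      have hXbar : IsIrrCharacter G (conjFun (X : G → ℂ)) :=
        Cfsg.Agent.Lib.Helper80.isIrrCharacter_conj X.2
      have hX'bar : IsIrrCharacter G (conjFun (X' : G → ℂ)) :=
        Cfsg.Agent.Lib.Helper80.isIrrCharacter_conj X'.2
      have hne' : conjFun (X' : G → ℂ) ≠ conjFun (X : G → ℂ) := by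
        intro h
        apply hne
        apply Subtype.ext
        funext g
        have := congrFun h g
        exact ((starRingEnd ℂ).injective this).symm
      have e1 : conjFun ((X : G → ℂ) - (X' : G → ℂ)) =
          conjFun (X : G → ℂ) - conjFun (X' : G → ℂ) := by
        funext g; simp [conjFun]
      rw [e1] at hconj
      have h3 : classInner (conjFun (X : G → ℂ) - conjFun (X' : G → ℂ)) (conjFun (X : G → ℂ)) =
          classInner (-((X : G → ℂ) - (X' : G → ℂ))) (conjFun (X : G → ℂ)) := by rw [hconj]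
      rw [Cfsg.Agent.Lib.Helper26.classInner_sub_left,
        Cfsg.Agent.Lib.Helper26.classInner_irr_self hXbar,
        Cfsg.Agent.Lib.Helper26.classInner_irr_ne hX'bar hXbar hne', neg_sub,
        Cfsg.Agent.Lib.Helper26.classInner_sub_left,
        Cfsg.Agent.Lib.Helper26.classInner_irr_ne X'.2 hXbar hcon] at h3
      by_cases hXr : (X : G → ℂ) = conjFun (X : G → ℂ)
      · rw [← hXr, Cfsg.Agent.Lib.Helper26.classInner_irr_self X.2] at h3
        norm_num at h3
      · rw [Cfsg.Agent.Lib.Helper26.classInner_irr_ne X.2 hXbar hXr] at h3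
        norm_num at h3
    exact ⟨X, X.2, by rw [hXX, hX'eq]⟩

end Cfsg.Agent.Lib.Helper3.DadeConj
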