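import Mathlib
import Cfsg.Prelude.Def_Blocks
import Cfsg.Agent.Lib.Helper16.CentProd

/-!
# Group-theoretic preliminaries for Knörr's theorem

Elementary facts about `P ⊔ C_G(P)`, about the subgroup `L ⟨u⟩` for an element `u` normalizing
`L`, and about `p`-elements modulo subgroups of index prime to `p`.
-/

set_option autoImplicit false

namespace Cfsg.Agent.Lib.Helper3.KnorrGrp

section Cent

variable {G : Type*} [Group G]

/-- the elements of `P C_G(P)` are products -/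
theorem mem_sup_centralizer (P : Subgroup G) {x : G}
    (hx : x ∈ P ⊔ Subgroup.centralizer (P : Set G)) :
    ∃ a ∈ P, ∃ c ∈ Subgroup.centralizer (P : Set G), x = a * c := by
  have h : P ⊔ Subgroup.centralizer (P : Set G) ≤ (Cfsg.Agent.Lib.Helper16.cpHom P).range := by
    apply sup_le
    · intro y hy
      exact ⟨(⟨y, hy⟩, 1), by simp [Cfsg.Agent.Lib.Helper16.cpHom]⟩
    · intro c hc
      exact ⟨(1, ⟨c, hc⟩), by simp [Cfsg.Agent.Lib.Helper16.cpHom]⟩
  obtain ⟨⟨a, c⟩, hac⟩ := h hx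
  exact ⟨a, a.2, c, c.2, hac.symm⟩

/-- the `|P|`-th power of an element of `P C_G(P)` centralizes `P` -/
theorem pow_card_mem_centralizer (P : Subgroup G) [Finite P] {x : G}
    (hx : x ∈ P ⊔ Subgroup.centralizer (P : Set G)) :
    x ^ Nat.card P ∈ Subgroup.centralizer (P : Set G) := by
  obtain ⟨a, ha, c, hc, rfl⟩ := mem_sup_centralizer P hx
  have hcomm : Commute a c := (Subgroup.mem_centralizer_iff.mp hc) a ha
  rw [hcomm.mul_pow]
  have h2 : a ^ Nat.card P = 1 := by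
    have h3 : (⟨a, ha⟩ : P) ^ Nat.card P = 1 := pow_card_eq_one'
    have h4 : (((⟨a, ha⟩ : P) ^ Nat.card P : P) : G) = ((1 : P) : G) := congrArg Subtype.val h3
    rw [Subgroup.coe_pow, Subgroup.coe_one] at h4
    exact h4
  rw [h2, one_mul]
  exact Subgroup.pow_mem _ hc _

/-- the subgroup `L ⟨u⟩` for `u` normalizing `L` -/
def gam (L : Subgroup G) (u : G) (hu : u ∈ Subgroup.normalizer (L : Set G)) : Subgroup G where
  carrier := {g | ∃ l ∈ L, ∃ i : ℤ, g = l * u ^ i}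
  mul_mem' := by
    rintro _ _ ⟨l, hl, i, rfl⟩ ⟨l', hl', j, rfl⟩
    refine ⟨l * (u ^ i * l' * (u ^ i)⁻¹), L.mul_mem hl ?_, i + j, ?_⟩
    · exact (Subgroup.mem_normalizer_iff.mp (zpow_mem hu i) l').mp hl'
    · rw [zpow_add]; group
  one_mem' := ⟨1, L.one_mem, 0, by simp⟩
  inv_mem' := by
    rintro _ ⟨l, hl, i, rfl⟩
    refine ⟨(u ^ i)⁻¹ * l⁻¹ * (u ^ i)⁻¹⁻¹, ?_, -i, ?_⟩
    · exact (Subgroup.mem_normalizer_iff.mp (inv_mem (zpow_mem hu i)) l⁻¹).mp (L.inv_mem hl)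
    · rw [zpow_neg]; group

theorem mem_gam (L : Subgroup G) (u : G) (hu : u ∈ Subgroup.normalizer (L : Set G)) (g : G) :
    g ∈ gam L u hu ↔ ∃ l ∈ L, ∃ i : ℤ, g = l * u ^ i := Iff.rfl

theorem le_gam (L : Subgroup G) (u : G) (hu : u ∈ Subgroup.normalizer (L : Set G)) :
    L ≤ gam L u hu := fun l hl => ⟨l, hl, 0, by simp⟩

theorem self_mem_gam (L : Subgroup G) (u : G) (hu : u ∈ Subgroup.normalizer (L : Set G)) :
    u ∈ gam L u hu := ⟨1, L.one_mem, 1, by simp⟩

/-- `L ⟨u⟩` lies in every subgroup containing `L` and `u` -/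
theorem gam_le (L : Subgroup G) (u : G) (hu : u ∈ Subgroup.normalizer (L : Set G))
    {S : Subgroup G} (hL : L ≤ S) (huS : u ∈ S) : gam L u hu ≤ S := by
  rintro _ ⟨l, hl, i, rfl⟩
  exact S.mul_mem (hL hl) (zpow_mem huS i)

/-- powers of `y v` with `y ∈ X` and `v` normalizing `X` -/
theorem mul_pow_eq (X : Subgroup G) {v : G} (hv : v ∈ Subgroup.normalizer (X : Set G)) {y : G}
    (hy : y ∈ X) (m : ℕ) : ∃ x' ∈ X, (y * v) ^ m = x' * v ^ m := by
  induction m with
  | zero => exact ⟨1, X.one_mem, by simp⟩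
  | succ m ih =>
    obtain ⟨x', hx', h⟩ := ih
    refine ⟨x' * (v ^ m * y * (v ^ m)⁻¹), X.mul_mem hx' ?_, ?_⟩
    · exact (Subgroup.mem_normalizer_iff.mp (pow_mem hv m) y).mp hy
    · rw [pow_succ, h, pow_succ]; group

end Cent

section Fin

variable {A : Type*} [Group A] [Finite A]

/-- if all `p`-elements of `T` lie in `K`, then `p` does not divide `|T : K|` -/
theorem not_dvd_relIndex_of_pElements (p : ℕ) [Fact p.Prime] (K T : Subgroup A)
    (h : ∀ t ∈ T, (∃ k : ℕ, t ^ (p ^ k) = 1) → t ∈ K) : ¬ p ∣ K.relIndex T := by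
  obtain ⟨S⟩ : Nonempty (Sylow p T) := inferInstance
  have hle : (S : Subgroup T) ≤ K.subgroupOf T := by
    intro s hs
    rw [Subgroup.mem_subgroupOf]
    apply h s s.2
    obtain ⟨k, hk⟩ := (S.isPGroup' ⟨s, hs⟩)
    refine ⟨k, ?_⟩
    have h1 := congrArg (fun z : (S : Subgroup T) => ((z : T) : A)) hk
    simpa using h1
  have hdvd : (K.subgroupOf T).index ∣ (S : Subgroup T).index := Subgroup.index_dvd_of_le hle
  intro hp
  exact S.not_dvd_index (dvd_trans hp hdvd)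

omit [Finite A] in
/-- a `p`-element lies in every normal subgroup of index prime to `p` -/
theorem mem_of_pow_eq_one_of_not_dvd_index (p : ℕ) [Fact p.Prime] (Y : Subgroup A) [Y.Normal]
    (hY : ¬ p ∣ Y.index) {w : A} {k : ℕ} (hw : w ^ (p ^ k) = 1) : w ∈ Y := by
  have hp : p.Prime := Fact.out
  rw [← QuotientGroup.eq_one_iff]
  have h1 : ((w : A ⧸ Y)) ^ (p ^ k) = 1 := by
    rw [← QuotientGroup.mk_pow, hw]; rfl
  have h2 : orderOf (w : A ⧸ Y) ∣ p ^ k := orderOf_dvd_of_pow_eq_one h1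
  have h3 : orderOf (w : A ⧸ Y) ∣ Nat.card (A ⧸ Y) := orderOf_dvd_natCard _
  rw [← Subgroup.index_eq_card] at h3
  have hcop : (p ^ k).Coprime Y.index :=
    Nat.Coprime.pow_left k ((Nat.Prime.coprime_iff_not_dvd hp).mpr hY)
  have h4 : orderOf (w : A ⧸ Y) = 1 := Nat.eq_one_of_dvd_coprimes hcop h2 h3
  exact orderOf_eq_one_iff.mp h4

end Fin

end Cfsg.Agent.Lib.Helper3.KnorrGrp
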